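import Cfsg.Prelude.Def_CaseTheorems

/-!
# Extensions of `L₃(2)` of sectional rank four: definitions
-/

set_option autoImplicit false

namespace Cfsg.Lib.L32
open Subgroup

variable {X : Type*} [Group X]

/-- no elementary abelian section of order `32` -/
def R4 (X : Type*) [Group X] : Prop :=
  ∀ H N : Subgroup X, N ≤ H → H ≤ normalizer (N : Set X) → (∀ h ∈ H, h * h ∈ N) → N.relIndex H ≤ 16

theorem comm_of_sq {G : Type*} [Group G] {a b : G} (ha : a * a = 1) (hb : b * b = 1) (h : a * b * (a * b) = 1) :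
    a * b = b * a := by
  rw [← inv_eq_of_mul_eq_one_right h, mul_inv_rev, inv_eq_of_mul_eq_one_right ha, inv_eq_of_mul_eq_one_right hb]

theorem r4_of (h : SectionalPRankLE 2 4 X) : R4 X := fun H N h1 h2 h3 => by
  have := (normal_subgroupOf_iff_le_normalizer h1).2 h2
  have k : ∀ a : H ⧸ N.subgroupOf H, a * a = 1 := fun a => by
    obtain ⟨a, rfl⟩ := QuotientGroup.mk_surjective a
    exact (QuotientGroup.eq_one_iff (a * a)).2 (h3 _ a.2)
  have := h H (N.subgroupOf H) ⊤ ⟨⟨fun a b => Subtype.ext (comm_of_sq (k _) (k _) (k _))⟩⟩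
    fun a _ => (sq a).trans (k a)
  rw [card_top] at this
  exact this

theorem R4.of_surj {Y : Type*} [Group Y] (h : R4 X) (f : X →* Y) (hf : Function.Surjective f) : R4 Y :=
  fun H N h1 h2 h3 => by
    have := h (H.comap f) (N.comap f) (comap_mono h1) (comap_normalizer_eq_of_surjective N hf ▸ comap_mono h2)
      fun x hx => by simpa using h3 _ hx
    rwa [relIndex_comap, map_comap_eq_self_of_surjective hf] at this

theorem step {G : Type*} [Group G] (A : Subgroup G) (hA : ∀ x ∈ A, x * x = 1) {a : G} (ha : a * a = 1)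
    (hc : ∀ x ∈ A, Commute a x) (hn : a ∉ A) : ∃ B : Subgroup G, (∀ x, x ∈ B ↔ x ∈ A ∨ a * x ∈ A) ∧
      (∀ x ∈ B, x * x = 1) ∧ Nat.card B = 2 * Nat.card A ∧ ∀ b, (∀ x ∈ A, Commute b x) → Commute b a →
        ∀ x ∈ B, Commute b x := by
  have k : ∀ x, a * (a * x) = x := fun x => by rw [← mul_assoc, ha, one_mul]
  have c : ∀ x, a * x ∈ A → Commute a x := fun x hx => k x ▸ (Commute.refl a).mul_right (hc _ hx)
  let B : Subgroup G :=
    { carrier := {x | x ∈ A ∨ a * x ∈ A}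
      one_mem' := .inl (one_mem _)
      mul_mem' := by
        rintro x y (hx | hx) (hy | hy)
        · exact .inl (mul_mem hx hy)
        · exact .inr (by rw [← mul_assoc, (hc x hx).eq, mul_assoc]; exact mul_mem hx hy)
        · exact .inr (by rw [← mul_assoc]; exact mul_mem hx hy)
        · exact .inl (by have := mul_mem hx hy; rwa [(c x hx).eq, mul_assoc, k] at this)
      inv_mem' := by
        rintro x (hx | hx)
        · exact .inl (inv_mem hx)
        · exact .inr (by have := inv_mem hx; rwa [(c x hx).eq, mul_inv_rev, inv_eq_of_mul_eq_one_right ha] at this) }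
  have le : A ≤ B := fun _ => .inl
  refine ⟨B, fun _ => Iff.rfl, ?_, ?_, ?_⟩
  · rintro x (hx | hx)
    · exact hA x hx
    · have := hA _ hx
      rwa [(c x hx).eq, mul_assoc, ← (c x hx).eq, k] at this
  · rw [← relIndex_bot_left, ← relIndex_bot_left, ← relIndex_mul_relIndex ⊥ A B bot_le le, mul_comm,
      relIindex_eq_two_iff'.2 ⟨a, (Or.inr (ha ▸ one_mem _) : a ∈ A ∨ a * a ∈ A), fun b hb => ?_⟩]
    by_cases e : b ∈ A
    · exact .inr ⟨e, fun f => hn (by simpa using mul_mem f (inv_mem e))⟩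
    · exact .inl ⟨hb.resolve_left e, e⟩
  · rintro b h1 h2 x (hx | hx)
    exacts [h1 x hx, k x ▸ h2.mul_right (h1 _ hx)]

/-- the subgroup generated by the elements of odd order -/
def O2 (X : Type*) [Group X] : Subgroup X := closure {x | Odd (orderOf x)}

theorem mem_O2 {x : X} (h : Odd (orderOf x)) : x ∈ O2 X := subset_closure h

instance O2_normal : (O2 X).Normal :=
  ⟨fun x hx g => by
    have : (O2 X).map (MulAut.conj g).toMonoidHom ≤ O2 X := by
      rw [O2, MonoidHom.map_closure, closure_le]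
      rintro _ ⟨x, hx, rfl⟩
      exact mem_O2 (hx.of_dvd_nat (orderOf_map_dvd _ x))
    exact this (mem_map_of_mem _ hx)⟩

/-- `Y` acts trivially on `A` modulo `B` -/
def Tr (Y A B : Subgroup X) : Prop := ∀ y ∈ Y, ∀ a ∈ A, y * a * y⁻¹ * a⁻¹ ∈ B

/-- the standing hypothesis, `Q = O₂(X)` -/
structure Hy (Q : Subgroup X) : Prop where
  nQ : Q.Normal
  pQ : IsPGroup 2 Q
  ind : Q.index = 168
  max : ∀ K : Subgroup X, K.Normal → Q ≤ K → K = Q ∨ K = ⊤
  idx7 : ∀ H : Subgroup X, Q ≤ H → H ≠ ⊤ → 7 ≤ H.index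
  cov : ∀ x, ∃ y ∈ O2 X, y⁻¹ * x ∈ Q
  r4 : R4 X

/-- `A / B` is elementary abelian of order eight and `X / Q` of order `168` acts faithfully -/
structure E8 (Q A B : Subgroup X) : Prop where
  nA : A.Normal
  nB : B.Normal
  le : B ≤ A
  sq : ∀ a ∈ A, a * a ∈ B
  idx : B.relIndex A = 8
  ker : ∀ x, (∀ a ∈ A, x * a * x⁻¹ * a⁻¹ ∈ B) ↔ x ∈ Q
  ind : Q.index = 168

/-- independence modulo `B` -/
def Ind (B : Subgroup X) (a b c : X) : Prop :=
  a ∉ B ∧ b ∉ B ∧ a * b ∉ B ∧ c ∉ B ∧ a * c ∉ B ∧ b * c ∉ B ∧ a * (b * c) ∉ B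

/-- at most one noncentral chief factor in `Q` -/
def One (Q : Subgroup X) : Prop := ∀ K : Subgroup X, K.Normal → K ≤ Q → Tr (O2 X) K ⊥ ∨ Tr (O2 X) Q K

/-- the structure of `Q` when it has one noncentral chief factor `R / Z` -/
structure Str (Q R Z : Subgroup X) (c d : X) : Prop where
  le : R ≤ Q
  e8 : E8 Q R Z
  sq : ∀ r ∈ R, r * r = 1
  trQ : Tr (O2 X) Q R
  memZ : ∀ z, z ∈ Z ↔ z ∈ R ∧ ∀ y ∈ O2 X, y * z * y⁻¹ = z
  cZ : ∀ z, z ∈ Z ↔ z = 1 ∨ z = c
  ab : ∀ x ∈ Q, ∀ y ∈ Q, x * y = y * x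
  uni : c ≠ 1 → ∀ x ∈ R, x ∉ Z → ∃ g ∈ O2 X, g * x * g⁻¹ = x * c
  dQ : d ∈ Q
  gen : ∀ q ∈ Q, ∃ j : ℤ, ∃ r ∈ R, q = d ^ j * r

theorem Tr.mono {Y A A' B B' : Subgroup X} (h : Tr Y A B) (hA : A' ≤ A) (hB : B ≤ B') : Tr Y A' B' :=
  fun y hy a ha => hB (h y hy a (hA ha))

/-- the stabilizer of a section -/
def St (A B : Subgroup X) [hA : A.Normal] [hB : B.Normal] : Subgroup X where
  carrier := {x | ∀ a ∈ A, x * a * x⁻¹ * a⁻¹ ∈ B}
  one_mem' := by simp
  mul_mem' {x y} hx hy a ha := by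
    have := mul_mem (hB.conj_mem _ (hy a ha) x) (hx a ha)
    rwa [show x * (y * a * y⁻¹ * a⁻¹) * x⁻¹ * (x * a * x⁻¹ * a⁻¹) = x * y * a * (x * y)⁻¹ * a⁻¹ by group] at this
  inv_mem' {x} hx a ha := by
    have := inv_mem (hx _ (hA.conj_mem a ha x⁻¹))
    rwa [show (x * (x⁻¹ * a * x⁻¹⁻¹) * x⁻¹ * (x⁻¹ * a * x⁻¹⁻¹)⁻¹)⁻¹ = x⁻¹ * a * x⁻¹⁻¹ * a⁻¹ by group] at this

instance St_normal (A B : Subgroup X) [hA : A.Normal] [hB : B.Normal] : (St A B).Normal :=
  ⟨fun x hx g a ha => by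
    have := hB.conj_mem _ (hx _ (hA.conj_mem a ha g⁻¹)) g
    rwa [show g * (x * (g⁻¹ * a * g⁻¹⁻¹) * x⁻¹ * (g⁻¹ * a * g⁻¹⁻¹)⁻¹) * g⁻¹ = g * x * g⁻¹ * a * (g * x * g⁻¹)⁻¹ * a⁻¹ by
      group] at this⟩

/-- coprime action: stability is transitive -/
theorem Tr.trans [Finite X] {Q A B C : Subgroup X} (hQ : IsPGroup 2 Q) [A.Normal] [hC : C.Normal] (BQ : B ≤ Q)
    (h1 : Tr (O2 X) A B) (h2 : Tr (O2 X) B C) : Tr (O2 X) A C := by
  refine fun y hy => (closure_le (St A C)).2 (fun y hy a ha => ?_) hy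
  let π := QuotientGroup.mk' C
  have hπ : ∀ x, π x = 1 ↔ x ∈ C := fun x => QuotientGroup.eq_one_iff x
  obtain ⟨t, ht⟩ : ∃ t, t = y * a * y⁻¹ * a⁻¹ := ⟨_, rfl⟩
  have tB : t ∈ B := ht ▸ h1 y (mem_O2 hy) a ha
  have c : π y * π t = π t * π y := by
    have := (hπ _).2 (h2 y (mem_O2 hy) t tB)
    simp only [map_mul, map_inv] at this
    exact mul_inv_eq_iff_eq_mul.1 (mul_inv_eq_one.1 this)
  have e : π y * π a = π t * π a * π y := by simp [ht]
  have k : ∀ n : ℕ, π y ^ n * π a = π t ^ n * π a * π y ^ n := fun n => by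
    induction n with
    | zero => simp
    | succ n ih => rw [pow_succ', mul_assoc, ih, ← mul_assoc, ← mul_assoc, (Commute.pow_right c n).eq, mul_assoc (π t ^ n), e,
        pow_succ]; group
  have k1 : π t ^ orderOf y = 1 := by simpa [← map_pow] using (k (orderOf y)).symm
  obtain ⟨m, hm⟩ := hQ ⟨t, BQ tB⟩
  have k2 : π t ^ 2 ^ m = 1 := by rw [← map_pow, show t ^ 2 ^ m = 1 from congrArg Subtype.val hm, map_one]
  rw [← ht, ← hπ, ← orderOf_eq_one_iff]
  exact Nat.eq_one_of_dvd_coprimes ((Nat.coprime_two_right.2 hy).pow_right m) (orderOf_dvd_of_pow_eq_one k1)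
    (orderOf_dvd_of_pow_eq_one k2)

theorem map_O2 [Finite X] {Y : Type*} [Group Y] (f : X →* Y) (hf : Function.Surjective f) : (O2 X).map f = O2 Y := by
  refine le_antisymm ?_ ((closure_le _).2 fun y hy => ?_)
  · rw [O2, MonoidHom.map_closure, closure_le]
    rintro _ ⟨x, hx, rfl⟩
    exact mem_O2 (hx.of_dvd_nat (orderOf_map_dvd f x))
  · obtain ⟨x, rfl⟩ := hf y
    obtain ⟨k, m, hm, e⟩ := Nat.exists_eq_two_pow_mul_odd (orderOf_pos x).ne'
    have h1 : f x ^ 2 ^ k ∈ (O2 X).map f := ⟨x ^ 2 ^ k, mem_O2 (hm.of_dvd_nat (orderOf_dvd_of_pow_eq_one (by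
      rw [← pow_mul, ← e, pow_orderOf_eq_one]))), map_pow ..⟩
    exact (zpowers_le.2 h1) (mem_zpowers_pow_iff.2 (Nat.coprime_two_left.2 hy |>.pow_left k))

theorem Hy.map [Finite X] {Y : Type*} [Group Y] {Q : Subgroup X} (h : Hy Q) (f : X →* Y) (hf : Function.Surjective f)
    (hk : f.ker ≤ Q) : Hy (Q.map f) := by
  have e : (Q.map f).comap f = Q := comap_map_eq_self hk
  refine ⟨h.nQ.map f hf, h.pQ.map f, by rw [← index_comap_of_surjective _ hf, e, h.ind], fun K hK hQ => ?_,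
    fun H hQ hH => ?_, fun x => ?_, h.r4.of_surj f hf⟩
  · rcases h.max (K.comap f) inferInstance (map_le_iff_le_comap.1 hQ) with k | k
    · exact .inl (by rw [← k, map_comap_eq_self_of_surjective hf])
    · exact .inr (by rw [← map_comap_eq_self_of_surjective hf K, k, map_top_of_surjective f hf])
  · rw [← index_comap_of_surjective _ hf]
    exact h.idx7 _ (map_le_iff_le_comap.1 hQ) fun k => hH (by
      rw [← map_comap_eq_self_of_surjective hf H, k, map_top_of_surjective f hf])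
  · obtain ⟨x, rfl⟩ := hf x
    obtain ⟨y, hy, k⟩ := h.cov x
    exact ⟨f y, map_O2 f hf ▸ mem_map_of_mem f hy, by simpa using mem_map_of_mem f k⟩

theorem tr_map [Finite X] {Y : Type*} [Group Y] (f : X →* Y) (hf : Function.Surjective f) {A : Subgroup X}
    {B : Subgroup Y} : Tr (O2 Y) (A.map f) B ↔ Tr (O2 X) A (B.comap f) := by
  rw [← map_O2 f hf]
  refine ⟨fun h y hy a ha => by simpa using h _ (mem_map_of_mem f hy) _ (mem_map_of_mem f ha), ?_⟩
  rintro h _ ⟨y, hy, rfl⟩ _ ⟨a, ha, rfl⟩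
  simpa using h y hy a ha

theorem E8.comap {Y : Type*} [Group Y] (f : X →* Y) (hf : Function.Surjective f) {Q A B : Subgroup Y} (h : E8 Q A B) :
    E8 (Q.comap f) (A.comap f) (B.comap f) := by
  refine ⟨h.nA.comap f, h.nB.comap f, comap_mono h.le, fun a ha => by simpa using h.sq _ ha, ?_, fun x => ?_, ?_⟩
  · rw [relIndex_comap, map_comap_eq_self_of_surjective hf, h.idx]
  · rw [mem_comap, ← h.ker]
    refine ⟨fun k a ha => ?_, fun k a ha => by simpa using k _ ha⟩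
    obtain ⟨a, rfl⟩ := hf a
    simpa using k a ha
  · rw [index_comap_of_surjective _ hf, h.ind]

end Cfsg.Lib.L32
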