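import Cfsg.Agent.Lib.L32.Mod
import Cfsg.Agent.Lib.L32.Base

/-!
# Sections of rank five
-/

set_option autoImplicit false

namespace Cfsg.Lib.L32
open Subgroup
open scoped IsMulCommutative

variable {X : Type*} [Group X]

theorem R4.five (h : R4 X) {N Q : Subgroup X} (NQ : N ≤ Q) {a b c d e : X} (aQ : a ∈ Q) (bQ : b ∈ Q) (cQ : c ∈ Q)
    (hn : ∀ x, x = a ∨ x = b ∨ x = c ∨ x = d ∨ x = e → x ∈ normalizer (N : Set X) ∧ x * x ∈ N)
    (ab : b * a = a * b) (ac : c * a = a * c) (bc : c * b = b * c)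
    (hc : ∀ x, x = a ∨ x = b ∨ x = c → d * x * d⁻¹ * x⁻¹ ∈ N ∧ e * x * e⁻¹ * x⁻¹ ∈ N) (de : d * e * (d * e) ∈ N)
    (h1 : a ∉ N) (h2 : ∀ x, x = b ∨ x = c ∨ x = b * c → x ∉ N ∧ a * x ∉ N) (h3 : d ∉ Q) (h4 : e ∉ Q)
    (h5 : d * e ∉ Q) : False := by
  let K := normalizer (N : Set X)
  let π := QuotientGroup.mk' (N.subgroupOf K)
  have hπ : ∀ x : K, π x = 1 ↔ x.1 ∈ N := fun x => QuotientGroup.eq_one_iff x
  have hQ : ∀ x : K, π x ∈ (Q.subgroupOf K).map π → x.1 ∈ Q := by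
    rintro x ⟨y, hy, e⟩
    have : y⁻¹ * x ∈ N.subgroupOf K := QuotientGroup.eq.1 e
    simpa [mem_subgroupOf] using mul_mem hy (NQ this)
  lift a to K using (hn a (by simp)).1
  lift b to K using (hn b (by simp)).1
  lift c to K using (hn c (by simp)).1
  lift d to K using (hn d (by simp)).1
  lift e to K using (hn e (by simp)).1
  have sq : ∀ x : K, x = a ∨ x = b ∨ x = c ∨ x = d ∨ x = e → π x * π x = 1 := fun x hx => by
    rw [← map_mul, hπ]; exact (hn x (by simpa using hx)).2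
  have cm : ∀ x y : K, x.1 * y * x.1⁻¹ * y.1⁻¹ ∈ N → Commute (π x) (π y) := fun x y hx => by
    have := (hπ (x * y * x⁻¹ * y⁻¹)).2 hx
    simp only [map_mul, map_inv] at this
    exact mul_inv_eq_iff_eq_mul.1 (mul_inv_eq_one.1 this)
  have cm' : ∀ x y : K, x.1 * y = y * x → Commute (π x) (π y) := fun x y hx => cm x y (by simp [hx])
  have b0 : ∀ g, ∀ x ∈ (⊥ : Subgroup (K ⧸ N.subgroupOf K)), Commute g x := by simp
  obtain ⟨A1, m1, s1, n1, c1⟩ := step ⊥ (by simp) (sq a (by simp)) (b0 _) (by rwa [mem_bot, hπ])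
  obtain ⟨A2, m2, s2, n2, c2⟩ := step A1 s1 (sq b (by simp)) (c1 _ (b0 _) (cm' _ _ ab)) (by
    simpa only [m1, mem_bot, ← map_mul, hπ, not_or, coe_mul] using h2 b (by simp))
  obtain ⟨A3, m3, s3, n3, c3⟩ := step A2 s2 (sq c (by simp)) (c2 _ (c1 _ (b0 _) (cm' _ _ ac)) (cm' _ _ bc)) (by
    simpa only [m1, m2, mem_bot, ← map_mul, hπ, not_or, coe_mul] using And.intro (h2 c (by simp)) (h2 (b * c) (by simp)))
  have q3 : A3 ≤ (Q.subgroupOf K).map π := fun x hx => by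
    have k : ∀ {y : K} {x}, y.1 ∈ Q → π y * x ∈ (Q.subgroupOf K).map π → x ∈ (Q.subgroupOf K).map π :=
      fun {y x} hy hx => (mul_mem_cancel_left (mem_map_of_mem π hy)).1 hx
    have k1 : ∀ {x}, x ∈ A1 → x ∈ (Q.subgroupOf K).map π := fun hx =>
      ((m1 _).1 hx).elim (fun e => bot_le (a := map π _) e) fun e => k aQ (bot_le (a := map π _) e)
    have k2 : ∀ {x}, x ∈ A2 → x ∈ (Q.subgroupOf K).map π := fun hx => ((m2 _).1 hx).elim k1 fun e => k bQ (k1 e)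
    exact ((m3 _).1 hx).elim k2 fun e => k cQ (k2 e)
  have cc : ∀ g : K, (∀ x : K, x = a ∨ x = b ∨ x = c → g.1 * x * g.1⁻¹ * x.1⁻¹ ∈ N) → ∀ x ∈ A3, Commute (π g) x :=
    fun g hg => c3 _ (c2 _ (c1 _ (b0 _) (cm _ _ (hg _ (by simp)))) (cm _ _ (hg _ (by simp)))) (cm _ _ (hg _ (by simp)))
  obtain ⟨A4, m4, s4, n4, c4⟩ := step A3 s3 (sq d (by simp)) (cc d fun x hx => (hc x (by simpa using hx)).1)
    fun e => h3 (hQ _ (q3 e))
  obtain ⟨A5, -, s5, n5, -⟩ := step A4 s4 (sq e (by simp)) (c4 _ (cc e fun x hx => (hc x (by simpa using hx)).2)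
    (comm_of_sq (sq d (by simp)) (sq e (by simp)) (by simpa only [map_mul] using (hπ (d * e * (d * e))).2 de)).symm)
    fun f => ((m4 _).1 f).elim (fun e => h4 (hQ _ (q3 e))) fun f => h5 (hQ (d * e) (q3 f))
  have := h ((A5.comap π).map K.subtype) N (fun x hx => ⟨⟨x, le_normalizer hx⟩, by
    rw [SetLike.mem_coe, mem_comap, (hπ _).2 hx]; exact one_mem _, rfl⟩) (map_subtype_le _) (by
      rintro _ ⟨x, hx, rfl⟩
      exact (hπ (x * x)).1 (s5 _ hx))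
  rw [← relIndex_comap, show N.comap K.subtype = π.ker from (QuotientGroup.ker_mk' (N.subgroupOf K)).symm, relIndex_ker,
    map_comap_eq_self_of_surjective (QuotientGroup.mk'_surjective _), n5, n4, n3, n2, n1, card_bot] at this
  omega

/-- conjugation on an abelian subgroup, written additively -/
def cj (A : Subgroup X) [IsMulCommutative A] {x : X} (hx : x ∈ normalizer (A : Set X)) : Additive A →+ Additive A :=
  MonoidHom.toAdditive (A.normalizerMonoidHom ⟨x, hx⟩).toMonoidHom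

/-- the inclusion -/
def ι {A : Subgroup X} (a : Additive A) : X := a.toMul

section
variable {A : Subgroup X} [IsMulCommutative A]
@[simp] theorem ι_cj {x : X} (hx : x ∈ normalizer (A : Set X)) (a : Additive A) : ι (cj A hx a) = x * ι a * x⁻¹ := rfl
@[simp] theorem ι_add (a b : Additive A) : ι (a + b) = ι a * ι b := rfl
@[simp] theorem ι_neg (a : Additive A) : ι (-a) = (ι a)⁻¹ := rfl
@[simp] theorem ι_sub (a b : Additive A) : ι (a - b) = ι a * (ι b)⁻¹ := by rw [sub_eq_add_neg]; rfl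
@[simp] theorem ι_zero : ι (0 : Additive A) = 1 := rfl
@[simp] theorem ι_zsmul (n : ℤ) (a : Additive A) : ι (n • a) = ι a ^ n := rfl
omit [IsMulCommutative A] in
theorem ι_mem (a : Additive A) : ι a ∈ A := a.toMul.2
omit [IsMulCommutative A] in
theorem ι_ext {a b : Additive A} : a = b ↔ ι a = ι b := ⟨fun e => e ▸ rfl, fun e => Subtype.ext e⟩
omit [IsMulCommutative A] in
theorem ι_surj {x : X} (hx : x ∈ A) : ∃ a : Additive A, ι a = x := ⟨.ofMul ⟨x, hx⟩, rfl⟩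
theorem cmA {x y : X} (hx : x ∈ A) (hy : y ∈ A) : x * y = y * x := congrArg Subtype.val (mul_comm' (⟨x, hx⟩ : A) ⟨y, hy⟩)

theorem R4.ex [Finite X] (h : R4 X) {Q : Subgroup X} [hQ : Q.Normal] (AQ : A ≤ Q) {u g : X} (hu : u ∈ normalizer (A : Set X))
    (hg : g ∈ normalizer (A : Set X)) (g3 : g * g * g = 1) (uu : u * u ∈ A) (uQ : u ∉ Q)
    (h3 : u * (g * u * g⁻¹) * (g * (g * u * g⁻¹) * g⁻¹) = 1) : ∃ (T2 T3 : Additive A →+ Additive A) (s : Additive A),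
      ι s = u * u ∧ Md (cj A hu) T2 T3 (cj A hg) s ∧ ¬ Good (cj A hu) T2 T3 (cj A hg) s := by
  obtain ⟨v, hv⟩ : ∃ v, v = g * u * g⁻¹ := ⟨_, rfl⟩
  obtain ⟨w, hw⟩ : ∃ w, w = g * v * g⁻¹ := ⟨_, rfl⟩
  rw [← hv, ← hw] at h3
  have nv : v ∈ normalizer (A : Set X) := hv ▸ mul_mem (mul_mem hg hu) (inv_mem hg)
  have nw : w ∈ normalizer (A : Set X) := hw ▸ mul_mem (mul_mem hg nv) (inv_mem hg)
  have cA : ∀ {x a}, x ∈ normalizer (A : Set X) → a ∈ A → x * a * x⁻¹ ∈ A := fun hx ha => (mem_normalizer_iff.1 hx _).1 ha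
  have ev : v * v = g * (u * u) * g⁻¹ := by rw [hv, conj_mul]
  have ew : w * w = g * (v * v) * g⁻¹ := by rw [hw, conj_mul]
  have vv : v * v ∈ A := ev ▸ cA hg uu
  have ww : w * w ∈ A := ew ▸ cA hg vv
  have iv : ∀ {x a}, x ∈ normalizer (A : Set X) → x * x ∈ A → a ∈ A → x⁻¹ * a * x = x * a * x⁻¹ := fun {x a} hx h2 ha => by
    have := cmA h2 (cA (inv_mem hx) ha)
    calc _ = x⁻¹ * a * x⁻¹⁻¹ * (x * x) * (x * x)⁻¹ := by group
      _ = _ := by rw [← this]; group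
  have uv : u * v = w⁻¹ := eq_inv_of_mul_eq_one_left h3
  obtain ⟨s, hs⟩ := ι_surj uu
  have vQ : v ∉ Q := fun e => uQ (by simpa [hv, mul_assoc] using hQ.conj_mem' _ e g)
  have wQ : w ∉ Q := fun e => vQ (by simpa [hw, mul_assoc] using hQ.conj_mem' _ e g)
  refine ⟨cj A nv, cj A nw, s, hs, ⟨fun x => ι_ext.2 ?_, fun x => ι_ext.2 ?_, fun x => ι_ext.2 ?_, fun x => ι_ext.2 ?_,
    fun x => ι_ext.2 ?_, ι_ext.2 ?_, ι_ext.2 ?_⟩, ?_⟩
  · simp only [ι_cj]; rw [← iv hu uu (cA hu (ι_mem x))]; group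
  · simp only [ι_cj]; rw [← iv nw ww (ι_mem x), ← uv, ← inv_inv w, ← uv]; group
  · simp only [ι_cj, hv]; group
  · simp only [ι_cj, hw]; group
  · simp only [ι_cj]
    calc _ = g * g * g * ι x * (g * g * g)⁻¹ := by group
      _ = _ := by simp [g3]
  · simp only [ι_cj, hs]; group
  · have k : (u * u * (v * v) * (w * w))⁻¹ = u * (v * u * v⁻¹ * u⁻¹) * u⁻¹ := by rw [← inv_inv w, ← uv]; group
    have kA := inv_mem (mul_mem (mul_mem uu vv) ww)
    have k2 : (u * (u * u * (v * v) * (w * w)) * u⁻¹)⁻¹ = v * u * v⁻¹ * u⁻¹ := by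
      rw [conj_inv, ← iv hu uu kA, k]; group
    simp only [ι_cj, ι_sub, ι_add, hs, ← ev, ← ew]
    rw [mul_assoc (u * u), cmA uu (mul_mem (inv_mem (cA hu (mul_mem (mul_mem uu vv) ww))) kA), k2, k]; group
  rintro ⟨w', b1, b2, b3, N, g1, g2, g3, g4, g5, g6, g7⟩
  let N' : Subgroup X := (AddSubgroup.toSubgroup' N).map A.subtype
  have mN : ∀ {a : Additive A}, ι a ∈ N' ↔ a ∈ N := fun {a} =>
    mem_map_iff_mem (f := A.subtype) (x := a.toMul) A.subtype_injective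
  have NA : N' ≤ A := map_subtype_le _
  have cj1 : ∀ {x a}, x ∈ A → a ∈ A → x * a * x⁻¹ = a := fun hx ha => by rw [cmA hx ha, mul_inv_cancel_right]
  have nA : ∀ {x}, x ∈ A → x ∈ normalizer (N' : Set X) := fun {x} hx => mem_normalizer_fintype fun n hn => by
    rwa [cj1 hx (NA hn)]
  have nu : u ∈ normalizer (N' : Set X) ∧ v ∈ normalizer (N' : Set X) := by
    constructor <;> refine mem_normalizer_fintype fun n hn => ?_ <;> obtain ⟨n, rfl⟩ := ι_surj (NA hn)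
    exacts [mN.2 (g1 _ (mN.1 hn)).1, mN.2 (g1 _ (mN.1 hn)).2]
  have d2 : u * ι w' * (u * ι w') = ι (s + cj A hu w' + w') := by
    rw [add_comm s]; simp only [ι_cj, ι_add, hs]; group
  have ed : v * ι (cj A hg w') = g * (u * ι w') * g⁻¹ := by rw [ι_cj, hv]; group
  have de : u * ι w' * (v * ι (cj A hg w')) = w⁻¹ * ι (cj A nv w' + cj A hg w') := by
    rw [ι_add, ι_cj nv, ← iv nv vv (ι_mem _), ← uv]; group
  refine h.five (N := N') (NA.trans AQ) (AQ (ι_mem b1)) (AQ (ι_mem b2)) (AQ (ι_mem b3)) (d := u * ι w')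
    (e := v * ι (cj A hg w')) ?_ (cmA (ι_mem _) (ι_mem _)) (cmA (ι_mem _) (ι_mem _)) (cmA (ι_mem _) (ι_mem _)) ?_ ?_
    (mt mN.1 g6) ?_ (fun e => uQ ((mul_mem_cancel_right (AQ (ι_mem _))).1 e))
    (fun e => vQ ((mul_mem_cancel_right (AQ (ι_mem _))).1 e))
    fun e => wQ (inv_mem_iff.1 ((mul_mem_cancel_right (AQ (ι_mem _))).1 (de ▸ e)))
  · rintro _ (rfl | rfl | rfl | rfl | rfl)
    · exact ⟨nA (ι_mem _), mN.2 (g5 b1 (by simp)).1⟩
    · exact ⟨nA (ι_mem _), mN.2 (g5 b2 (by simp)).1⟩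
    · exact ⟨nA (ι_mem _), mN.2 (g5 b3 (by simp)).1⟩
    · exact ⟨mul_mem nu.1 (nA (ι_mem _)), d2 ▸ mN.2 g2⟩
    · exact ⟨mul_mem nu.2 (nA (ι_mem _)), by rw [ed, conj_mul, d2]; exact mN.2 g3⟩
  · have k : ∀ (b : Additive A) {t a}, a ∈ A → t * a * ι b * (t * a)⁻¹ * (ι b)⁻¹ = t * ι b * t⁻¹ * (ι b)⁻¹ :=
      fun b t a ha => by rw [mul_assoc t, cmA ha (ι_mem b)]; group
    have k' : ∀ b, b = b1 ∨ b = b2 ∨ b = b3 → u * ι w' * ι b * (u * ι w')⁻¹ * (ι b)⁻¹ ∈ N' ∧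
        v * ι (cj A hg w') * ι b * (v * ι (cj A hg w'))⁻¹ * (ι b)⁻¹ ∈ N' := fun b hb => by
      rw [k b (ι_mem _), k b (ι_mem _)]
      exact ⟨by simpa using mN.2 (g5 b hb).2.1, by simpa using mN.2 (g5 b hb).2.2⟩
    rintro _ (rfl | rfl | rfl) <;> exact k' _ (by simp)
  · have := mN.2 g4
    rw [add_sub_right_comm, ι_add, ι_sub, ι_cj nw, ← iv nw ww (ι_mem _), ι_cj hg (cj A hg s), ι_cj hg s, hs, ← ev, ← ew] at this
    rw [de]; convert this using 1; group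
  · have k : ∀ b, b = b2 ∨ b = b3 ∨ b = b2 + b3 → ι b ∉ N' ∧ ι b1 * ι b ∉ N' := fun b hb =>
      ⟨mt mN.1 (g7 b hb).1, mt (mN (a := b1 + b)).1 (g7 b hb).2⟩
    rintro _ (rfl | rfl | rfl)
    exacts [k _ (by simp), k _ (by simp), k (b2 + b3) (by simp)]

end

end Cfsg.Lib.L32
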