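import Cfsg.Agent.Lib.L32.E8
import Cfsg.Agent.Lib.L32.Sec

/-!
# The cyclic factor has order at most four
-/

set_option autoImplicit false

namespace Cfsg.Lib.L32
open Subgroup
open scoped IsMulCommutative

theorem ex_inv {M : Type*} [AddCommGroup M] (m : ℕ) : ∀ d : M, (2 : ℤ) ^ m • d = 0 → (2 : ℤ) • d ≠ 0 →
    ∃ i : ℤ, (2 * i) • d ≠ 0 ∧ (2 * i) • d + (2 * i) • d = 0 := by
  induction m with
  | zero => exact fun d h1 h2 => (h2 (by simp_all)).elim
  | succ m ih =>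
    intro d h1 h2
    by_cases h4 : (2 : ℤ) • (2 : ℤ) • d = 0
    · exact ⟨1, by simpa using h2, by linear_combination (norm := module) h4⟩
    obtain ⟨i, a, b⟩ := ih _ (by rw [← mul_smul, ← pow_succ, h1]) h4
    exact ⟨2 * i, fun e => a (by linear_combination (norm := module) e), by linear_combination (norm := module) b⟩

theorem Md.m1' {M : Type*} [AddCommGroup M] {T1 T2 T3 σ : M →+ M} {s : M} (h : Md T1 T2 T3 σ s) (R Z : AddSubgroup M)
    {z a b c d : M} {m : ℕ} (r2 : ∀ x ∈ R, x + x = 0) (hσ : ∀ x, σ x - x ∈ R) (hT : ∀ x, T1 x - x ∈ R)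
    (hZ : ∀ x, x ∈ Z ↔ x = 0 ∨ x = c) (zR : z ∈ R) (aR : a ∈ R) (bR : b ∈ R) (cR : c ∈ R) (hc : σ c = c)
    (tc : T1 c = c) (e1 : σ z - z ∈ Z) (e2 : σ a - b ∈ Z) (e3 : σ b - (a + b) ∈ Z) (e4 : T1 z - z ∈ Z)
    (e5 : T1 a - a ∈ Z) (e6 : T1 b - (b + z) ∈ Z)
    (i : z ∉ Z ∧ a ∉ Z ∧ z + a ∉ Z ∧ b ∉ Z ∧ z + b ∉ Z ∧ a + b ∉ Z ∧ z + (a + b) ∉ Z)
    (cov : ∀ x ∈ R, x ∈ Z ∨ z + x ∈ Z ∨ a + x ∈ Z ∨ z + (a + x) ∈ Z ∨ b + x ∈ Z ∨ z + (b + x) ∈ Z ∨ a + (b + x) ∈ Z ∨
      z + (a + (b + x)) ∈ Z) (gen : ∀ x, ∃ j : ℤ, ∃ r ∈ R, x = j • d + r) (dm : ∀ x : M, (2 : ℤ) ^ m • x = 0)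
    (d4 : (4 : ℤ) • d ≠ 0) (ev : ∀ x, x + x ∈ R → x + x ∈ Z) (rk : c ≠ 0 → ∀ t, t + t = 0 → t ∈ R) :
    Good T1 T2 T3 σ s := by
  have σR : ∀ x ∈ R, σ x ∈ R := fun x hx => by simpa using add_mem (hσ x) hx
  have cZ : c ∈ Z := (hZ c).2 (.inr rfl)
  have c2 := r2 c cR
  have fZ : ∀ {x}, x ∈ Z → σ x = x ∧ T1 x = x ∧ x + x = 0 := fun {x} hx => by
    rcases (hZ x).1 hx with rfl | rfl <;> simp [*]
  obtain ⟨z1, hz⟩ : ∃ z1, z1 = z + (σ z - z) := ⟨_, rfl⟩
  obtain ⟨w, hw⟩ : ∃ w, w = a + (σ b - (a + b)) := ⟨_, rfl⟩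
  have z1R : z1 ∈ R := hz ▸ add_mem zR (hσ z)
  have wR : w ∈ R := hw ▸ add_mem aR (sub_mem (σR b bR) (add_mem aR bR))
  have sz : σ z1 = z1 := by
    have k := h.s3 z
    have k1 : σ (σ z) = z := by
      have := (fZ e1).1; rw [map_sub] at this; linear_combination (norm := module) this + (fZ e1).2.2
    rw [k1] at k
    rw [hz, k]; simp [k]
  have sw : σ w = b + (σ a - b) + (σ b - (a + b)) := by rw [hw, map_add, (fZ e3).1]; module
  have ssw : σ (σ w) = a + b + (σ a - b) := by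
    rw [sw, map_add, map_add, (fZ e3).1, (fZ e2).1]; linear_combination (norm := module) (fZ e3).2.2
  have nw : w + σ w + σ (σ w) = 0 := by
    rw [ssw, sw, hw]; linear_combination (norm := module) (fZ e3).2.2 + (fZ e2).2.2 + r2 a aR + r2 b bR
  have t1 : T1 w - w ∈ Z := by rw [hw, map_add, (fZ e3).2.1]; simpa using e5
  have t2 : T1 (σ w) - σ w - z1 ∈ Z := by
    rw [sw, map_add, map_add, (fZ e3).2.1, (fZ e2).2.1, hz]; convert sub_mem e6 e1 using 1; module
  have t3 : T1 z1 - z1 ∈ Z := by rw [hz, map_add, (fZ e1).2.1]; convert e4 using 1; module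
  have j1 : ∀ o, o = 0 ∨ o = w ∨ o = σ w ∨ o = σ (σ w) → z1 + o ∉ Z ∧ (o ∈ Z → o = 0) := by
    rintro _ (rfl | rfl | rfl | rfl)
    · exact ⟨fun e => i.1 (by convert sub_mem e e1 using 1; rw [hz]; module), fun _ => rfl⟩
    · exact ⟨fun e => i.2.2.1 (by convert sub_mem (sub_mem e e1) e3 using 1; rw [hz, hw]; module),
        fun e => (i.2.1 (by convert sub_mem e e3 using 1; rw [hw]; module)).elim⟩
    · exact ⟨fun e => i.2.2.2.2.1 (by convert sub_mem (sub_mem (sub_mem e e1) e3) e2 using 1; rw [hz, sw]; module),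
        fun e => (i.2.2.2.1 (by convert sub_mem (sub_mem e e3) e2 using 1; rw [sw]; module)).elim⟩
    · exact ⟨fun e => i.2.2.2.2.2.2 (by convert sub_mem (sub_mem e e1) e2 using 1; rw [hz, ssw]; module),
        fun e => (i.2.2.2.2.2.1 (by convert sub_mem e e2 using 1; rw [ssw]; module)).elim⟩
  have cv : ∀ x ∈ R, ∃ o, (o = 0 ∨ o = w ∨ o = σ w ∨ o = σ (σ w)) ∧ (x - o ∈ Z ∨ x - o - z1 ∈ Z) := fun x hx => by
    have z2 := r2 z zR
    have a2 := r2 a aR
    have b2 := r2 b bR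
    rcases cov x hx with e | e | e | e | e | e | e | e
    · exact ⟨0, by simp, .inl (by simpa)⟩
    · exact ⟨0, by simp, .inr (by convert sub_mem e e1 using 1; rw [hz]; linear_combination (norm := module) -z2)⟩
    · exact ⟨w, by simp, .inl (by convert sub_mem e e3 using 1; rw [hw]; linear_combination (norm := module) -a2)⟩
    · exact ⟨w, by simp, .inr (by
        convert sub_mem (sub_mem e e1) e3 using 1; rw [hz, hw]; linear_combination (norm := module) -a2 - z2)⟩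
    · exact ⟨σ w, by simp, .inl (by
        convert sub_mem (sub_mem e e2) e3 using 1; rw [sw]; linear_combination (norm := module) -b2)⟩
    · exact ⟨σ w, by simp, .inr (by
        convert sub_mem (sub_mem (sub_mem e e2) e3) e1 using 1; rw [sw, hz]; linear_combination (norm := module) -b2 - z2)⟩
    · exact ⟨σ (σ w), by simp, .inl (by
        convert sub_mem e e2 using 1; rw [ssw]; linear_combination (norm := module) -b2 - a2)⟩
    · exact ⟨σ (σ w), by simp, .inr (by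
        convert sub_mem (sub_mem e e2) e1 using 1; rw [ssw, hz]; linear_combination (norm := module) -b2 - a2 - z2)⟩
  have z0 := (j1 0 (.inl rfl)).1
  rw [add_zero] at z0
  have w0 : w ≠ 0 := fun e => i.2.1 (by convert neg_mem e3 using 1; linear_combination (norm := module) e - hw)
  obtain ⟨d', hd⟩ : ∃ d', d' = d + σ d + σ (σ d) := ⟨_, rfl⟩
  have sd : σ d' = d' := by simp only [hd, map_add, h.s3]; module
  have r0 : d' - (3 : ℤ) • d ∈ R := by
    convert add_mem (add_mem (hσ d) (hσ d)) (hσ (σ d)) using 1; rw [hd]; module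
  have d4' : (4 : ℤ) • d' ≠ 0 := fun e => d4 (odd_kill (m := m) (n := 3) (by decide) (dm _) (by
    linear_combination (norm := module) e - (2 : ℤ) • r2 _ r0))
  obtain ⟨j, r, rR, hs⟩ : ∃ j : ℤ, ∃ r ∈ R, s = j • d' + r := by
    obtain ⟨j, r, rR, hs⟩ := gen s
    obtain ⟨u, v, e⟩ : IsCoprime ((2 : ℤ) ^ m) 3 := IsCoprime.pow_left ⟨-1, 1, by ring⟩
    have : d = (v * 3) • d := by
      conv_lhs => rw [← one_smul ℤ d, ← e, add_smul, mul_smul, dm, smul_zero, zero_add]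
    exact ⟨j * v, r - (j * v) • (d' - (3 : ℤ) • d), sub_mem rR (zsmul_mem r0 _), by
      rw [hs]; linear_combination (norm := module) j • this⟩
  have dc : ∀ i : ℤ, (2 * i) • d' ∈ R → (2 * i) • d' = 0 ∨ (2 * i) • d' = c := fun i e => by
    rw [show (2 * i) • d' = i • d' + i • d' by module] at e ⊢; exact (hZ _).1 (ev _ e)
  have a2 : T1 (σ w) = σ w + z1 ∨ T1 (σ w) = σ w + (z1 + c) :=
    ((hZ _).1 t2).imp (fun e => by linear_combination (norm := module) e) fun e => by linear_combination (norm := module) e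
  have a3 : T1 z1 = z1 ∨ T1 z1 = z1 + c :=
    ((hZ _).1 t3).imp (fun e => by linear_combination (norm := module) e) fun e => by linear_combination (norm := module) e
  by_cases a1 : T1 w = w + c
  · refine h.m1 R r2 σR z1R wR cR nw sz hc sd (fun x hx => ?_) (fun e => z0 (e ▸ zero_mem _)) (fun e => z0 (e ▸ cZ)) w0 tc
      a1 a2 a3 (hT _) (dm _) d4' dc rR hs
    obtain ⟨o, ho, e⟩ := cv x hx
    refine ⟨x - o, o, ?_, ho, by module⟩
    rcases e with e | e <;> rcases (hZ _).1 e with e | e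
    exacts [.inl e, .inr (.inr (.inl e)), .inr (.inl (by linear_combination (norm := module) e)),
      .inr (.inr (.inr (by linear_combination (norm := module) e)))]
  have a1' : T1 w = w := ((hZ _).1 t1).elim (fun e => by linear_combination (norm := module) e) fun e =>
    (a1 (by linear_combination (norm := module) e)).elim
  have c0 : c ≠ 0 := fun e => a1 (by rw [e, add_zero, a1'])
  have tz : T1 z1 = z1 := a3.elim id fun e => (h.fix sz hc e tc c2).1
  obtain ⟨y, hy⟩ : ∃ y, y = T1 (σ w) - σ w := ⟨_, rfl⟩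
  rw [← hy] at t2
  have sy : σ y = y ∧ T1 y = y := by
    rw [show y = y - z1 + z1 by module, map_add, map_add, (fZ t2).1, (fZ t2).2.1, sz, tz]; exact ⟨rfl, rfl⟩
  have yR : y ∈ R := hy ▸ hT _
  let R' : AddSubgroup M :=
    { carrier := {x | ∃ i j k : ℤ, x = i • y + j • w + k • σ w}
      add_mem' := by
        rintro _ _ ⟨i, j, k, rfl⟩ ⟨i', j', k', rfl⟩
        exact ⟨i + i', j + j', k + k', by module⟩
      zero_mem' := ⟨0, 0, 0, by simp⟩
      neg_mem' := by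
        rintro _ ⟨i, j, k, rfl⟩
        exact ⟨-i, -j, -k, by module⟩ }
  have le : R' ≤ R := by
    rintro _ ⟨i, j, k, rfl⟩
    exact add_mem (add_mem (zsmul_mem yR _) (zsmul_mem wR _)) (zsmul_mem (σR _ wR) _)
  have σR' : ∀ x ∈ R', σ x ∈ R' := by
    rintro _ ⟨i, j, k, rfl⟩
    exact ⟨i, -k, j - k, by simp only [map_add, map_zsmul, sy.1]; linear_combination (norm := module) k • nw⟩
  have TR' : ∀ x ∈ R', T1 x ∈ R' := by
    rintro _ ⟨i, j, k, rfl⟩
    exact ⟨i + k, j, k, by simp only [map_add, map_zsmul, sy.2, a1']; linear_combination (norm := module) -(k • hy)⟩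
  have yR' : y ∈ R' := ⟨1, 0, 0, by simp⟩
  have wR' : w ∈ R' := ⟨0, 1, 0, by simp⟩
  have cv' : ∀ x ∈ R', ∃ p o, (p = 0 ∨ p = y) ∧ (o = 0 ∨ o = w ∨ o = σ w ∨ o = σ (σ w)) ∧ x = p + o := by
    have k : ∀ (i : ℤ) (x : M), x ∈ R → i • x = 0 ∨ i • x = x := fun i x hx => by
      obtain ⟨l, rfl | rfl⟩ := Int.even_or_odd' i
      exacts [.inl (by linear_combination (norm := module) l • r2 x hx),
        .inr (by linear_combination (norm := module) l • r2 x hx)]
    rintro _ ⟨i, j, l, rfl⟩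
    refine ⟨_, j • w + l • σ w, k i y yR, ?_, add_assoc ..⟩
    rcases k j w wR with e | e <;> rcases k l _ (σR _ wR) with f | f <;> rw [e, f]
    exacts [by simp, by simp, by simp, .inr (.inr (.inr (by
      linear_combination (norm := module) r2 _ wR + r2 _ (σR _ wR) - nw)))]
  have nc : c ∉ R' := fun e => by
    obtain ⟨p, o, rfl | rfl, ho, f⟩ := cv' c e
    · rw [zero_add] at f; exact c0 (f ▸ (j1 o ho).2 (f ▸ cZ))
    · exact (j1 o ho).1 (by convert sub_mem cZ t2 using 1; rw [f]; module)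
  have dec : ∀ x ∈ R, x ∈ R' ∨ x - c ∈ R' := fun x hx => by
    obtain ⟨o, ho, e⟩ := cv x hx
    have oR : o ∈ R' := by
      rcases ho with rfl | rfl | rfl | rfl
      exacts [zero_mem _, wR', σR' _ wR', σR' _ (σR' _ wR')]
    have k : ∀ v ∈ R', x - v ∈ Z → x ∈ R' ∨ x - c ∈ R' := fun v hv e => ((hZ _).1 e).imp
      (fun e => by rwa [sub_eq_zero.1 e]) fun e => by rwa [← e, sub_sub_cancel]
    exact e.elim (k o oR) fun e => k _ (add_mem oR yR') (by convert sub_mem e t2 using 1; module)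
  obtain ⟨l, l1, l2⟩ := ex_inv m d' (dm _) fun e => d4' (by linear_combination (norm := module) (2 : ℤ) • e)
  have l3 : (2 * l) • d' = c := (dc l (rk c0 _ l2)).resolve_left l1
  obtain ⟨j', r', rR', hs'⟩ : ∃ j : ℤ, ∃ r ∈ R', s = j • d' + r := (dec r rR).elim (fun e => ⟨j, r, e, hs⟩) fun e =>
    ⟨j + 2 * l, _, e, by rw [hs, ← l3]; module⟩
  refine h.m1 R' (fun x hx => r2 x (le hx)) σR' yR' wR' (zero_mem _) nw sy.1 (map_zero _) sd (fun x hx => ?_)
    (fun e => z0 (by convert neg_mem t2 using 1; rw [e]; module)) (fun e => z0 (by convert neg_mem t2 using 1; rw [e]; module))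
    w0 (map_zero _) (by rw [a1', add_zero]) (.inl (by rw [hy]; module)) (.inl sy.2) ((dec _ (hT d')).resolve_right fun e => nc ?_)
    (dm _) d4' (fun i e => .inl ((dc i (le e)).resolve_right fun f => nc (f ▸ e))) rR' hs'
  · obtain ⟨p, o, hp, ho, f⟩ := cv' x hx
    exact ⟨p, o, hp.imp_right .inl, ho, f⟩
  obtain ⟨e', he'⟩ : ∃ e', e' = T1 d' - d' - c := ⟨_, rfl⟩
  rw [← he'] at e
  have k1 : T1 d' = d' + e' + c := by rw [he']; module
  have k2 : T2 d' = d' + σ e' + c := by rw [← sd, h.s1, k1, map_add, map_add, hc]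
  have k3 : T3 d' = d' + σ (σ e') + c := by rw [← sd, h.s2, k2, map_add, map_add, hc]
  have k4 := h.t12 d'
  rw [k2, k3, map_add, map_add, k1, tc] at k4
  convert sub_mem (sub_mem (σR' _ (σR' _ e)) e) (TR' _ (σR' _ e)) using 1
  linear_combination (norm := module) k4

variable {X : Type*} [Group X] [Finite X] {Q : Subgroup X}

/-- Suppose `d ^ 4 ≠ 1`.  Work in `Additive Q` with `R4.ex` (`A = Q`), `g, u` from `E8.gu` for a basis `z₀, a₀, b₀` of
`R / Z`, and apply `Md.m1` with `z = z₀ + σ z₀ + σ σ z₀`, `w = σ a₀ - σ σ a₀`, `d' = d + σ d + σ σ d` (`= 3 d + r`,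
`Md.odd_kill`; `Q = R ⟨d'⟩`; even multiples of `d'` are fixed by `O2 X`, so lie in `Z` if they lie in `R`).
If `T1 w = w` and `c ≠ 0`: use `R' = {0, z'} + {0, w, σ w, σ σ w}` (`T1 σ w = σ w + z'`) and `c := 0`; here `c` is a
multiple of `d'` (the involution `t` of `⟨d'⟩` is fixed by `O2 X`; if `t ∉ R` then `R ⟨t⟩` is elementary of order `32`),
and `e = T1 d' - d'` lies in `R'` because `T1 T2 = T3` gives `e + T1 σ e + σ σ e = 0`. -/
theorem Str.d4 (h : Hy Q) {R Z : Subgroup X} {c d : X} (s : Str Q R Z c d) : d ^ 4 = 1 := by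
  by_contra d4
  have := h.nQ
  have : IsMulCommutative Q := ⟨⟨fun a b => Subtype.ext (s.ab _ a.2 _ b.2)⟩⟩
  obtain ⟨z, zR, z1, -⟩ := s.e8.ext (one_mem R) (one_mem R)
  obtain ⟨a, aR, a1, a2, -⟩ := s.e8.ext zR (one_mem R)
  obtain ⟨b, bR, b1⟩ := s.e8.ext zR aR
  have i : Ind Z z a b := ⟨z1, a1, a2, b1⟩
  obtain ⟨g, hg, u, hu, g3, uQ, uu, h3, e1, e2, e3, e4, e5, e6⟩ := s.e8.gu h zR aR bR i
  obtain ⟨T2, T3, s', -, md, ng⟩ := h.r4.ex (le_refl Q) (le_normalizer_of_normal (mem_top u))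
    (le_normalizer_of_normal (mem_top g)) g3 uu uQ h3
  have cZ := (s.memZ c).1 ((s.cZ c).2 (.inr rfl))
  have cov := fun x (hx : x ∈ R) => s.e8.cov zR aR bR i hx
  obtain ⟨z, rfl⟩ := ι_surj (s.le zR)
  obtain ⟨a, rfl⟩ := ι_surj (s.le aR)
  obtain ⟨b, rfl⟩ := ι_surj (s.le bR)
  obtain ⟨c, rfl⟩ := ι_surj (s.le cZ.1)
  obtain ⟨d, rfl⟩ := ι_surj s.dQ
  obtain ⟨m, hm⟩ := h.pQ.exists_card_eq
  let A : Subgroup X → AddSubgroup (Additive Q) := fun K => (K.subgroupOf Q).toAddSubgroup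
  have mA : ∀ K x, x ∈ A K ↔ ι x ∈ K := fun _ _ => Iff.rfl
  refine ng (md.m1' (A R) (A Z) (z := z) (a := a) (b := b) (c := c) (d := d) (m := m) (fun x hx => ι_ext.2 (s.sq _ hx))
    (fun x => by simpa [mA] using s.trQ g hg _ (ι_mem x)) (fun x => by simpa [mA] using s.trQ u hu _ (ι_mem x))
    (fun x => by rw [mA, s.cZ, ι_ext, ι_ext, ι_zero]) zR aR bR cZ.1 (ι_ext.2 (cZ.2 g hg)) (ι_ext.2 (cZ.2 u hu))
    (by simpa [mA] using e1) (by simpa [mA] using e2) (by simpa [mA] using e3) (by simpa [mA] using e4)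
    (by simpa [mA] using e5) (by simpa [mA] using e6) i (fun x hx => cov _ hx) (fun x => ?_) (fun x => ι_ext.2 ?_)
    (fun e => d4 (by simpa using ι_ext.1 e)) (fun x hx => (s.memZ _).2 ⟨hx, fun y hy => ?_⟩) fun c0 t ht => ?_)
  · obtain ⟨j, r, hr, e⟩ := s.gen _ (ι_mem x)
    obtain ⟨r, rfl⟩ := ι_surj (s.le hr)
    exact ⟨j, r, hr, ι_ext.2 e⟩
  · have : ι x ^ Nat.card Q = 1 := congrArg Subtype.val (pow_card_eq_one' (x := x.toMul))
    rw [hm] at this
    rw [ι_zsmul, ι_zero]; exact_mod_cast this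
  · have k := s.trQ y hy _ (ι_mem x)
    have := s.ab _ (s.le k) _ (ι_mem x)
    calc y * (ι x * ι x) * y⁻¹ = y * ι x * y⁻¹ * (ι x)⁻¹ * (ι x * (y * ι x * y⁻¹ * (ι x)⁻¹)) * ι x := by group
      _ = ι x * ι x := by rw [← this, ← mul_assoc _ _ (ι x), s.sq _ k, one_mul]
  by_contra tR
  obtain ⟨B, -, q, n, -⟩ := step R s.sq (ι_ext.1 ht) (fun x hx => s.ab _ (ι_mem t) _ (s.le hx)) tR
  have k := h.r4 B ⊥ bot_le le_normalizer_of_normal q
  have k2 : Nat.card Z = 2 := by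
    rw [← Set.ncard_pair (fun e => c0 (ι_ext.2 e.symm) : (1 : X) ≠ ι c), ← Nat.card_coe_set_eq]
    exact congrArg (fun t : Set X => Nat.card t) (Set.ext s.cZ)
  rw [relIndex_bot_left, n, ← relIndex_bot_left, ← relIndex_mul_relIndex ⊥ Z R bot_le s.e8.le, relIndex_bot_left, k2,
    s.e8.idx] at k
  omega

end Cfsg.Lib.L32
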