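import Cfsg.Agent.Lib.L32.Base

/-!
# The natural module: bases and transitivity
-/

set_option autoImplicit false

namespace Cfsg.Lib.L32
open Subgroup

variable {X : Type*} [Group X] [Finite X] {Q : Subgroup X}

/-- conjugation on the quotient -/
def sg (B : Subgroup X) [B.Normal] : X →* MulAut (X ⧸ B) := MulAut.conj.comp (QuotientGroup.mk' B)

omit [Finite X] in
theorem sg_iff {B : Subgroup X} [B.Normal] {g x y : X} :
    g * x * g⁻¹ * y⁻¹ ∈ B ↔ sg B g (QuotientGroup.mk' B x) = QuotientGroup.mk' B y := by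
  rw [← QuotientGroup.eq_one_iff]; exact mul_inv_eq_one (a := sg B g (QuotientGroup.mk' B x)) (b := QuotientGroup.mk' B y)

omit [Finite X] in
theorem Ind.conj {B : Subgroup X} [hB : B.Normal] {a b c : X} (i : Ind B a b c) (g : X) :
    Ind B (g * a * g⁻¹) (g * b * g⁻¹) (g * c * g⁻¹) := by
  have k : ∀ x, x ∉ B → g * x * g⁻¹ ∉ B := fun x hx e => hx (by simpa [mul_assoc] using hB.conj_mem' _ e g)
  obtain ⟨i1, i2, i3, i4, i5, i6, i7⟩ := i
  simp only [Ind, conj_mul]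
  exact ⟨k _ i1, k _ i2, k _ i3, k _ i4, k _ i5, k _ i6, k _ i7⟩

namespace E8
variable {A B : Subgroup X} (h : E8 Q A B)
include h

omit [Finite X] in
theorem card_map [B.Normal] : Nat.card (A.map (QuotientGroup.mk' B)) = 8 := by
  rw [← relIndex_ker, QuotientGroup.ker_mk', h.idx]

omit [Finite X] in
theorem sq' [B.Normal] {a : X} (ha : a ∈ A) : QuotientGroup.mk' B a * QuotientGroup.mk' B a = 1 :=
  (QuotientGroup.eq_one_iff (a * a)).2 (h.sq a ha)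

omit [Finite X] in
theorem cm' [B.Normal] {a b : X} (ha : a ∈ A) (hb : b ∈ A) : Commute (QuotientGroup.mk' B a) (QuotientGroup.mk' B b) :=
  comm_of_sq (h.sq' ha) (h.sq' hb) (h.sq' (mul_mem ha hb))

/-- new independent element: four cosets of `B` do not cover `A` (take `a = 1`, `b = 1` for the smaller cases) -/
theorem ext {a b : X} (ha : a ∈ A) (hb : b ∈ A) : ∃ c ∈ A, c ∉ B ∧ a * c ∉ B ∧ b * c ∉ B ∧ a * (b * c) ∉ B := by
  have := h.nB
  by_contra! k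
  let π := QuotientGroup.mk' B
  have hπ : ∀ x, x ∈ B → π x = 1 := fun x => (QuotientGroup.eq_one_iff x).2
  have h1 : (A.map π : Set (X ⧸ B)) ⊆ {1, (π a)⁻¹, (π b)⁻¹, (π (a * b))⁻¹} := by
    rintro _ ⟨c, hc, rfl⟩
    by_cases k1 : c ∈ B
    · exact .inl (hπ c k1)
    by_cases k2 : a * c ∈ B
    · exact .inr (.inl (eq_inv_of_mul_eq_one_right (hπ _ k2)))
    by_cases k3 : b * c ∈ B
    · exact .inr (.inr (.inl (eq_inv_of_mul_eq_one_right (hπ _ k3))))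
    exact .inr (.inr (.inr (eq_inv_of_mul_eq_one_right (hπ (a * b * c) (mul_assoc a b c ▸ k c hc k1 k2 k3)))))
  have h2 := (Set.ncard_le_ncard h1).trans ((Set.ncard_insert_le _ _).trans (Nat.add_le_add_right
    ((Set.ncard_insert_le _ _).trans (Nat.add_le_add_right (Set.ncard_insert_le _ _) 1)) 1))
  rw [Set.ncard_singleton] at h2
  have h3 : (A.map π : Set (X ⧸ B)).ncard = 8 := h.card_map
  omega

/-- a basis spans (in `X / B` use `step` three times, orders `2, 4, 8`) -/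
theorem cov {a b c : X} (ha : a ∈ A) (hb : b ∈ A) (hc : c ∈ A) (i : Ind B a b c) {x : X} (hx : x ∈ A) :
    x ∈ B ∨ a * x ∈ B ∨ b * x ∈ B ∨ a * (b * x) ∈ B ∨ c * x ∈ B ∨ a * (c * x) ∈ B ∨ b * (c * x) ∈ B ∨
      a * (b * (c * x)) ∈ B := by
  have := h.nB
  let π := QuotientGroup.mk' B
  have hπ : ∀ x, π x = 1 ↔ x ∈ B := fun x => QuotientGroup.eq_one_iff x
  obtain ⟨i1, i2, i3, i4, i5, i6, i7⟩ := i
  have b0 : ∀ g, ∀ x ∈ (⊥ : Subgroup (X ⧸ B)), Commute g x := by simp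
  obtain ⟨A1, m1, s1, n1, c1⟩ := step ⊥ (by simp) (h.sq' ha) (b0 _) (by rwa [mem_bot, hπ])
  obtain ⟨A2, m2, s2, n2, c2⟩ := step A1 s1 (h.sq' hb) (c1 _ (b0 _) (h.cm' hb ha)) (by
    simpa only [m1, mem_bot, ← map_mul, hπ, not_or, π] using And.intro i2 i3)
  obtain ⟨A3, m3, s3, n3, c3⟩ := step A2 s2 (h.sq' hc) (c2 _ (c1 _ (b0 _) (h.cm' hc ha)) (h.cm' hc hb)) (by
    simpa only [m1, m2, mem_bot, ← map_mul, hπ, not_or, π] using And.intro (And.intro i4 i5) (And.intro i6 i7))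
  have q3 : A3 ≤ A.map π := fun x hx => by
    have k : ∀ {y x}, y ∈ A → π y * x ∈ A.map π → x ∈ A.map π :=
      fun {y x} hy hx => (mul_mem_cancel_left (mem_map_of_mem π hy)).1 hx
    have k1 : ∀ {x}, x ∈ A1 → x ∈ A.map π := fun hx =>
      ((m1 _).1 hx).elim (fun e => bot_le (a := map π _) e) fun e => k ha (bot_le (a := map π _) e)
    have k2 : ∀ {x}, x ∈ A2 → x ∈ A.map π := fun hx => ((m2 _).1 hx).elim k1 fun e => k hb (k1 e)
    exact ((m3 _).1 hx).elim k2 fun e => k hc (k2 e)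
  have := eq_of_le_of_card_ge q3 (by rw [h.card_map, n3, n2, n1, card_bot])
  have hx : π x ∈ A3 := this ▸ mem_map_of_mem π hx
  simpa only [m1, m2, m3, mem_bot, ← map_mul, hπ, or_assoc, π] using hx

/-- an element fixing a basis lies in `Q` -/
theorem of_fix {a b c g : X} (ha : a ∈ A) (hb : b ∈ A) (hc : c ∈ A) (i : Ind B a b c) (h1 : g * a * g⁻¹ * a⁻¹ ∈ B)
    (h2 : g * b * g⁻¹ * b⁻¹ ∈ B) (h3 : g * c * g⁻¹ * c⁻¹ ∈ B) : g ∈ Q := by
  have nB := h.nB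
  let C := ((sg B g).toMonoidHom.eqLocus (MonoidHom.id _)).comap (QuotientGroup.mk' B)
  have hC : ∀ {x}, g * x * g⁻¹ * x⁻¹ ∈ B ↔ x ∈ C := sg_iff
  have BC : B ≤ C := fun x hx => hC.1 (mul_mem (nB.conj_mem x hx g) (inv_mem hx))
  refine (h.ker g).1 fun x hx => hC.2 ?_
  rcases h.cov ha hb hc i hx with k | k | k | k | k | k | k | k <;>
    simpa only [mul_mem_cancel_left (hC.1 h1), mul_mem_cancel_left (hC.1 h2), mul_mem_cancel_left (hC.1 h3)] using BC k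

/-- transitivity on bases: the stabilizer of a basis is `Q` of index `168`, and there are at most `7 * 6 * 4` bases -/
theorem tr3 {a b c a' b' c' : X} (ha : a ∈ A) (hb : b ∈ A) (hc : c ∈ A) (i : Ind B a b c) (ha' : a' ∈ A) (hb' : b' ∈ A)
    (hc' : c' ∈ A) (i' : Ind B a' b' c') :
    ∃ g, g * a * g⁻¹ * a'⁻¹ ∈ B ∧ g * b * g⁻¹ * b'⁻¹ ∈ B ∧ g * c * g⁻¹ * c'⁻¹ ∈ B := by
  classical
  have := h.nB
  let π := QuotientGroup.mk' B
  have hπ : ∀ x, π x = 1 ↔ x ∈ B := fun x => QuotientGroup.eq_one_iff x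
  let act : MulAction X ((X ⧸ B) × (X ⧸ B) × (X ⧸ B)) := MulAction.compHom _ (sg B)
  have h1 : @MulAction.stabilizer X _ _ act (π a, π b, π c) = Q := by
    ext g
    change (sg B g (π a), sg B g (π b), sg B g (π c)) = _ ↔ _
    rw [Prod.mk.injEq, Prod.mk.injEq, ← sg_iff, ← sg_iff, ← sg_iff]
    exact ⟨fun k => h.of_fix ha hb hc i k.1 k.2.1 k.2.2, fun k =>
      ⟨(h.ker g).2 k a ha, (h.ker g).2 k b hb, (h.ker g).2 k c hc⟩⟩
  let V : Finset (X ⧸ B) := (Set.toFinite (A.map π : Set (X ⧸ B))).toFinset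
  have mV : ∀ {u}, u ∈ V ↔ u ∈ A.map π := Set.Finite.mem_toFinset _
  have cV : V.card = 8 := by rw [← Set.ncard_eq_toFinset_card]; exact h.card_map
  let S : Finset ((X ⧸ B) × (X ⧸ B) × (X ⧸ B)) := (V \ {1}).biUnion fun u => (V \ {1, u}).biUnion fun v =>
    (V \ {1, u, v, u * v}).image fun w => (u, v, w)
  have cS : S.card ≤ 168 := by
    refine (Finset.card_biUnion_le_card_mul _ _ 24 fun u hu => ?_).trans ?_
    · simp only [Finset.mem_sdiff, Finset.mem_singleton, mV] at hu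
      refine (Finset.card_biUnion_le_card_mul _ _ 4 fun v hv => Finset.card_image_le.trans ?_).trans ?_
      · simp only [Finset.mem_sdiff, Finset.mem_insert, Finset.mem_singleton, mV, not_or] at hv
        obtain ⟨⟨u, hu, rfl⟩, u1⟩ := hu
        rw [Finset.card_sdiff_of_subset (by
          simp only [Finset.insert_subset_iff, Finset.singleton_subset_iff, mV]
          exact ⟨one_mem _, mem_map_of_mem π hu, hv.1, mul_mem (mem_map_of_mem π hu) hv.1⟩), cV,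
          Finset.card_eq_four.2 ⟨_, _, _, _, Ne.symm u1, Ne.symm hv.2.1, fun e => hv.2.2 (mul_left_cancel
            (e.symm.trans (h.sq' hu).symm)), Ne.symm hv.2.2, fun e => hv.2.1 (left_eq_mul.1 e), fun e => u1 (right_eq_mul.1 e), rfl⟩]
      · rw [Finset.card_sdiff_of_subset (by
          simp only [Finset.insert_subset_iff, Finset.singleton_subset_iff, mV]
          exact ⟨one_mem _, hu.1⟩), cV, Finset.card_pair (Ne.symm hu.2)]
    · rw [Finset.card_sdiff_of_subset (by simp only [Finset.singleton_subset_iff, mV]; exact one_mem _), cV,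
        Finset.card_singleton]
  have mS : ∀ {a b c}, a ∈ A → b ∈ A → c ∈ A → Ind B a b c → (π a, π b, π c) ∈ S := fun {a b c} ha hb hc i => by
    obtain ⟨i1, i2, i3, i4, i5, i6, i7⟩ := i
    have k : ∀ {x y}, x ∈ A → x * y ∉ B → π y ≠ π x := fun hx k e => k ((hπ _).1 (by rw [map_mul, e, h.sq' hx]))
    simp only [S, Finset.mem_biUnion, Finset.mem_image, Finset.mem_sdiff, Finset.mem_insert, Finset.mem_singleton, mV,
      not_or]
    exact ⟨_, ⟨mem_map_of_mem π ha, (hπ _).not.2 i1⟩, _, ⟨mem_map_of_mem π hb, (hπ _).not.2 i2, k ha i3⟩, _,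
      ⟨mem_map_of_mem π hc, (hπ _).not.2 i4, k ha i5, k hb i6, k (mul_mem ha hb) (mul_assoc a b c ▸ i7)⟩, rfl⟩
  have h2 : @MulAction.orbit X _ act.toSMul (π a, π b, π c) = S := by
    refine Set.eq_of_subset_of_ncard_le ?_ (by
      rwa [← @MulAction.index_stabilizer X _ _ act, h1, h.ind, Set.ncard_coe_finset])
    rintro _ ⟨g, rfl⟩
    exact mS (h.nA.conj_mem a ha g) (h.nA.conj_mem b hb g) (h.nA.conj_mem c hc g) (i.conj g)
  obtain ⟨g, e⟩ : (π a', π b', π c') ∈ @MulAction.orbit X _ act.toSMul (π a, π b, π c) := h2 ▸ mS ha' hb' hc' i'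
  change (sg B g (π a), sg B g (π b), sg B g (π c)) = _ at e
  simp only [Prod.mk.injEq] at e
  exact ⟨g, sg_iff.2 e.1, sg_iff.2 e.2.1, sg_iff.2 e.2.2⟩

/-- the same inside `O2 X` (`Hy.cov`: `g = y q`, `q ∈ Q` acts trivially) -/
theorem tr3Y (hy : Hy Q) {a b c a' b' c' : X} (ha : a ∈ A) (hb : b ∈ A) (hc : c ∈ A) (i : Ind B a b c) (ha' : a' ∈ A)
    (hb' : b' ∈ A) (hc' : c' ∈ A) (i' : Ind B a' b' c') :
    ∃ g ∈ O2 X, g * a * g⁻¹ * a'⁻¹ ∈ B ∧ g * b * g⁻¹ * b'⁻¹ ∈ B ∧ g * c * g⁻¹ * c'⁻¹ ∈ B := by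
  have := h.nB
  obtain ⟨g, e1, e2, e3⟩ := h.tr3 ha hb hc i ha' hb' hc' i'
  obtain ⟨y, hy, k⟩ := hy.cov g
  have k1 : ∀ {x x'}, x ∈ A → g * x * g⁻¹ * x'⁻¹ ∈ B → y * x * y⁻¹ * x'⁻¹ ∈ B := fun {x x'} hx e => by
    rw [sg_iff] at e ⊢
    rw [← e, ← mul_inv_cancel_left y g, map_mul, MulAut.mul_apply, sg_iff.1 ((h.ker _).2 k x hx)]
  exact ⟨y, hy, k1 ha e1, k1 hb e2, k1 hc e3⟩

/-- generators of an `A₄`.  Take `g₀` with `z ↦ z, a ↦ b, b ↦ a b`; `g₀ ^ 3 ∈ Q` (`of_fix`), so `g = g₀ ^ 4 ^ k` has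
`g ^ 3 = 1` and acts like `g₀`.  Take `x` with `z ↦ z, a ↦ a z, b ↦ b` and `u = x * (g * x * g⁻¹)⁻¹`. -/
theorem gu (hy : Hy Q) {z a b : X} (hz : z ∈ A) (ha : a ∈ A) (hb : b ∈ A) (i : Ind B z a b) :
    ∃ g ∈ O2 X, ∃ u ∈ O2 X, g * g * g = 1 ∧ u ∉ Q ∧ u * u ∈ Q ∧ u * (g * u * g⁻¹) * (g * (g * u * g⁻¹) * g⁻¹) = 1 ∧
      g * z * g⁻¹ * z⁻¹ ∈ B ∧ g * a * g⁻¹ * b⁻¹ ∈ B ∧ g * b * g⁻¹ * (a * b)⁻¹ ∈ B ∧
      u * z * u⁻¹ * z⁻¹ ∈ B ∧ u * a * u⁻¹ * a⁻¹ ∈ B ∧ u * b * u⁻¹ * (b * z)⁻¹ ∈ B := by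
  have := h.nB
  let π := QuotientGroup.mk' B
  have hπ : ∀ x, π x = 1 ↔ x ∈ B := fun x => QuotientGroup.eq_one_iff x
  have zz : π z * π z = 1 := h.sq' hz
  have aa : π a * π a = 1 := h.sq' ha
  have bb : π b * π b = 1 := h.sq' hb
  have az : π a * π z = π z * π a := h.cm' ha hz
  have bz : π b * π z = π z * π b := h.cm' hb hz
  have bab : π b * (π a * π b) = π a := by rw [← mul_assoc, (h.cm' hb ha).eq, mul_assoc, bb, mul_one]
  have zaz : π z * (π a * π z) = π a := by rw [az, ← mul_assoc, zz, one_mul]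
  have nb : ∀ {x y}, π x = π y → y ∉ B → x ∉ B := fun e k k' => k ((hπ _).1 (e ▸ (hπ _).2 k'))
  have ⟨i1, i2, i3, i4, i5, i6, i7⟩ := i
  obtain ⟨g₀, hg₀, e1, e2, e3⟩ := h.tr3Y hy hz ha hb i hz hb (mul_mem ha hb)
    ⟨i1, i4, i5, i6, i7, nb bab i2, nb (by simp only [map_mul, bab]) i3⟩
  obtain ⟨x, hx, f1, f2, f3⟩ := h.tr3Y hy hz ha hb i hz (mul_mem ha hz) hb
    ⟨i1, nb az i3, nb zaz i2, i4, i5, nb (by simp only [map_mul]; rw [az, mul_assoc]) i7,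
      nb (by simp only [map_mul]; rw [← mul_assoc, zaz]) i6⟩
  rw [sg_iff] at e1 e2 e3 f1 f2 f3
  change sg B _ (π _) = π _ at e1 e2 e3 f1 f2 f3
  rw [map_mul] at e3 f2
  have q3 : g₀ ^ 3 ∈ Q := by
    refine h.of_fix hz ha hb i (sg_iff.2 ?_) (sg_iff.2 ?_) (sg_iff.2 ?_) <;>
      simp only [pow_three, map_mul, MulAut.mul_apply] <;> change _ = π _
    · exact e1 ▸ e1 ▸ e1 ▸ by simp only [e1, π]
    · simp only [π] at e2 e3 bab ⊢; simp only [e2, e3, map_mul, bab]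
    · simp only [π] at e2 e3 bab ⊢; simp only [e2, e3, map_mul, bab]
  obtain ⟨m, hm⟩ := hy.pQ ⟨_, q3⟩
  have hm : (g₀ ^ 3) ^ 2 ^ m = 1 := congrArg Subtype.val hm
  obtain ⟨j, hj⟩ : ∃ j, 2 ^ m * 2 ^ m = 1 + 3 * j := by
    have : (2 ^ m * 2 ^ m) % 3 = 1 := by rw [← mul_pow, Nat.pow_mod]; simp
    exact ⟨2 ^ m * 2 ^ m / 3, by omega⟩
  obtain ⟨g, hg⟩ : ∃ g, g = g₀ ^ (2 ^ m * 2 ^ m) := ⟨_, rfl⟩
  have g3 : g * g * g = 1 := by
    rw [← pow_three', hg, ← pow_mul, mul_comm, pow_mul, pow_mul, hm, one_pow]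
  have gY : g ∈ O2 X := hg ▸ pow_mem hg₀ _
  have ge : ∀ {w}, w ∈ A → sg B g (π w) = sg B g₀ (π w) := fun {w} hw => by
    rw [hg, hj, pow_add, pow_one, pow_mul, map_mul, MulAut.mul_apply]
    exact congrArg _ (sg_iff.1 ((h.ker _).2 (pow_mem q3 j) w hw))
  rw [← ge hz] at e1
  rw [← ge ha] at e2
  rw [← ge hb] at e3
  obtain ⟨u, hu⟩ : ∃ u, u = x * (g * x * g⁻¹)⁻¹ := ⟨_, rfl⟩
  have k : ∀ w, sg B u (sg B g (sg B x w)) = sg B x (sg B g w) := fun w => by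
    rw [← MulAut.mul_apply, ← MulAut.mul_apply, ← MulAut.mul_apply, ← map_mul, ← map_mul, ← map_mul, hu]
    congr 2; group
  have u1 := k (π z)
  have u2 := k (π a)
  have u3 := k (π b)
  simp only [e1, e2, e3, f1, f2, f3, map_mul] at u1 u2 u3
  rw [u1] at u2
  replace u2 : sg B u (π b) = π b * π z := by rw [← u2, mul_assoc, u2, zz, mul_one]
  rw [u2, mul_assoc, ← bz] at u3
  replace u3 := mul_right_cancel u3
  refine ⟨g, gY, u, hu ▸ mul_mem hx (inv_mem (mul_mem (mul_mem gY hx) (inv_mem gY))), g3, fun uQ => ?_,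
    h.of_fix hz ha hb i (sg_iff.2 ?_) (sg_iff.2 ?_) (sg_iff.2 ?_), ?_, sg_iff.2 e1, sg_iff.2 e2, sg_iff.2 e3,
    sg_iff.2 u1, sg_iff.2 u3, sg_iff.2 u2⟩
  · exact i1 ((hπ _).1 (left_eq_mul.1 ((sg_iff.1 ((h.ker u).2 uQ b hb)).symm.trans u2)))
  · exact (congrArg (· (π z)) (map_mul (sg B) u u)).trans ((congrArg (sg B u) u1).trans u1)
  · exact (congrArg (· (π a)) (map_mul (sg B) u u)).trans ((congrArg (sg B u) u3).trans u3)
  · refine (congrArg (· (π b)) (map_mul (sg B) u u)).trans ((congrArg (sg B u) u2).trans ?_)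
    rw [map_mul, u1, u2, mul_assoc, zz, mul_one]
  · calc _ = x * (g * g * g * x * (g * g * g)⁻¹)⁻¹ := by rw [hu]; simp only [mul_inv_rev, mul_assoc, inv_inv, inv_mul_cancel_left, mul_inv_cancel_left]
      _ = 1 := by simp [g3]

end E8

end Cfsg.Lib.L32
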