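import Cfsg.Agent.Lib.L32.E8
import Cfsg.Agent.Lib.Misc.A8Sub
import Cfsg.Agent.Lib.Small.Order168
import Cfsg.Agent.Lib.Coprime.Constrained
import Cfsg.Prelude.Def_Local
import Cfsg.Prelude.Def_Transfer

/-!
# The isomorphism type of the radical
-/

set_option autoImplicit false

namespace Cfsg.Lib.L32
open Subgroup
open scoped IsMulCommutative

theorem zmod_hom {G : Type*} [Group G] (n : ℕ) {x : G} (hx : x ^ n = 1) :
    ∃ f : Multiplicative (ZMod n) →* G, ∀ k : ℤ, f (.ofAdd (k : ZMod n)) = x ^ k :=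
  ⟨AddMonoidHom.toMultiplicativeLeft (ZMod.lift n ⟨zmultiplesHom (Additive G) (.ofMul x), by
    simpa [← ofMul_pow] using hx⟩), fun k => by simp⟩

theorem zmod_hom2 {G : Type*} [Group G] {x : G} (hx : x * x = 1) :
    ∃ f : Multiplicative (ZMod 2) →* G, f (.ofAdd 1) = x ∧ ∀ u, u = 1 ∨ f u = x := by
  obtain ⟨f, hf⟩ := zmod_hom 2 ((sq x).trans hx)
  have e : f (.ofAdd 1) = x := by simpa using hf 1
  exact ⟨f, e, fun u => (show u = 1 ∨ u = .ofAdd 1 by revert u; decide).imp id fun (k : u = _) => k ▸ e⟩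

variable {X : Type*} [Group X] [Finite X] {Q : Subgroup X}

/-- If `d² = 1` then `Q` is elementary abelian, `8 ∣ |Q| ≤ 16`.  Otherwise take a basis `a₁, a₂, a₃` of `R / Z`;
`c ∈ ⟨d²⟩` (else `R ⟨d²⟩` is elementary of order `32`: `d² ∈ R` forces `d² ∈ Z`), and
`(i, j) ↦ d ^ i * ∏ aₖ ^ jₖ` is bijective (`d ∉ R`; even powers of `d` are fixed by `O2 X`). -/
theorem Str.fin (h : Hy Q) {R Z : Subgroup X} {c d : X} (s : Str Q R Z c d) (d4 : d ^ 4 = 1) :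
    (IsElementaryAbelian 2 Q ∧ (Nat.card Q = 8 ∨ Nat.card Q = 16)) ∨
      Nonempty (Q ≃* Multiplicative (ZMod 4) × (Fin 3 → Multiplicative (ZMod 2))) := by
  have : IsMulCommutative Q := ⟨⟨fun a b => Subtype.ext (s.ab _ a.2 _ b.2)⟩⟩
  have r16 : ∀ B : Subgroup X, (∀ x ∈ B, x * x = 1) → Nat.card B ≤ 16 := fun B hB => by
    simpa using h.r4 B ⊥ bot_le (by rw [normalizer_eq_top]; exact le_top) fun x hx => mem_bot.2 (hB x hx)
  have cR : Nat.card Z * 8 = Nat.card R := by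
    rw [← s.e8.idx, ← relIndex_bot_left, ← relIndex_bot_left, relIndex_mul_relIndex ⊥ Z R bot_le s.e8.le]
  by_cases d2 : d * d = 1
  · have k : ∀ q ∈ Q, q * q = 1 := fun q hq => by
      obtain ⟨j, r, hr, rfl⟩ := s.gen q hq
      rw [mul_assoc, ← mul_assoc r, s.ab r (s.le hr) _ (zpow_mem s.dQ j), mul_assoc, s.sq r hr, mul_one,
        ← (Commute.refl d).mul_zpow, d2, one_zpow]
    refine .inl ⟨⟨this, fun a ha => (pow_two a).trans (k a ha)⟩, ?_⟩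
    have h1 := r16 Q k
    obtain ⟨m, hm⟩ : 8 ∣ Nat.card Q := (Dvd.intro_left _ cR).trans (card_dvd_of_le s.le)
    have h2 : 0 < Nat.card Q := Nat.card_pos
    omega
  have dZ : d * d ∈ R → d * d ∈ Z := fun e => (s.memZ _).2 ⟨e, fun y hy => by
    obtain ⟨t, ht⟩ : ∃ t, t = y * d * y⁻¹ * d⁻¹ := ⟨_, rfl⟩
    have tR : t ∈ R := ht ▸ s.trQ y hy d s.dQ
    have k : y * d * y⁻¹ = t * d := by rw [ht]; group
    rw [← conj_mul, k, mul_assoc, ← mul_assoc d, s.ab d s.dQ t (s.le tR), mul_assoc, ← mul_assoc, s.sq t tR, one_mul]⟩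
  have d4' : d * d * (d * d) = 1 := by rw [← d4]; simp [pow_succ, mul_assoc]
  have hc : c = 1 ∨ c = d * d := by
    by_contra! k
    have dR : d * d ∉ R := fun e => ((s.cZ _).1 (dZ e)).elim d2 k.2.symm
    obtain ⟨B, -, b1, b2, -⟩ := step R s.sq d4' (fun x hx => s.ab _ (mul_mem s.dQ s.dQ) x (s.le hx)) dR
    have h1 := r16 B b1
    have h2 : 1 < Nat.card Z := (one_lt_card_iff_ne_bot Z).2 fun e => k.1 (mem_bot.1 (e ▸ (s.cZ c).2 (.inr rfl)))
    omega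
  obtain ⟨a, ha, a1, -⟩ := s.e8.ext (one_mem R) (one_mem R)
  obtain ⟨b, hb, b1, b2, -⟩ := s.e8.ext ha (one_mem R)
  obtain ⟨e, he, e1, e2, e3, e4⟩ := s.e8.ext ha hb
  obtain ⟨f, hf⟩ := zmod_hom 4 (x := (⟨d, s.dQ⟩ : Q)) (Subtype.ext d4)
  obtain ⟨fa, ga, ka⟩ := zmod_hom2 (x := (⟨a, s.le ha⟩ : Q)) (Subtype.ext (s.sq a ha))
  obtain ⟨fb, gb, kb⟩ := zmod_hom2 (x := (⟨b, s.le hb⟩ : Q)) (Subtype.ext (s.sq b hb))
  obtain ⟨fe, ge, ke⟩ := zmod_hom2 (x := (⟨e, s.le he⟩ : Q)) (Subtype.ext (s.sq e he))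
  let ψ : (Fin 3 → Multiplicative (ZMod 2)) →* Q :=
    fa.comp (Pi.evalMonoidHom _ 0) * (fb.comp (Pi.evalMonoidHom _ 1) * fe.comp (Pi.evalMonoidHom _ 2))
  have hψ : ∀ j, ψ j = fa (j 0) * (fb (j 1) * fe (j 2)) := fun _ => rfl
  have ψR : ∀ j, (ψ j).1 ∈ R ∧ ((ψ j).1 ∈ Z → j = 1) := fun j => by
    have ext : j 0 = 1 → j 1 = 1 → j 2 = 1 → j = 1 := fun h0 h1 h2 => funext fun i => by fin_cases i <;> assumption
    rw [hψ]
    rcases ka (j 0) with h0 | h0 <;> rcases kb (j 1) with h1 | h1 <;> rcases ke (j 2) with h2 | h2 <;>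
      simp only [h0, h1, h2, map_one, mul_one, one_mul, coe_mul, OneMemClass.coe_one]
    exacts [⟨one_mem _, fun _ => ext h0 h1 h2⟩, ⟨he, fun k => (e1 k).elim⟩, ⟨hb, fun k => (b1 k).elim⟩,
      ⟨mul_mem hb he, fun k => (e3 k).elim⟩, ⟨ha, fun k => (a1 k).elim⟩, ⟨mul_mem ha he, fun k => (e2 k).elim⟩,
      ⟨mul_mem ha hb, fun k => (b2 k).elim⟩, ⟨mul_mem ha (mul_mem hb he), fun k => (e4 k).elim⟩]
  have fR : ∀ i, (f i).1 ∈ R → (f i).1 ∈ Z ∧ (f i = 1 → i = 1) := fun i hi => by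
    rcases (show i = 1 ∨ i = .ofAdd ((1 : ℤ) : ZMod 4) ∨ i = .ofAdd ((2 : ℤ) : ZMod 4) ∨
      i = .ofAdd ((-1 : ℤ) : ZMod 4) by clear hi; revert i; decide) with rfl | rfl | rfl | rfl
    · simp
    · rw [hf, zpow_one] at hi
      exact (d2 (s.sq d hi)).elim
    · rw [hf, zpow_two] at hi ⊢
      exact ⟨dZ hi, fun k => (d2 (congrArg Subtype.val k)).elim⟩
    · rw [hf, zpow_neg_one] at hi
      exact (d2 (s.sq d (inv_mem_iff.1 hi))).elim
  let φ := f.coprod ψ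
  refine .inr ⟨(MulEquiv.ofBijective φ ⟨(injective_iff_map_eq_one φ).2 ?_, fun q => ?_⟩).symm⟩
  · rintro ⟨i, j⟩ k
    have k1 : (f i).1 * (ψ j).1 = 1 := congrArg Subtype.val k
    obtain ⟨k2, k3⟩ := fR i ((mul_mem_cancel_right (ψR j).1).1 (k1 ▸ one_mem R))
    obtain rfl := (ψR j).2 ((mul_mem_cancel_left k2).1 (k1 ▸ one_mem Z))
    rw [k3 (by simpa [φ] using k)]; rfl
  · let M := φ.range.map Q.subtype
    have dM : d ∈ M := ⟨_, ⟨(.ofAdd ((1 : ℤ) : ZMod 4), 1), rfl⟩, by simp only [φ, MonoidHom.coprod_apply, hf]; simp⟩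
    have aM : a ∈ M := ⟨_, ⟨(1, ![.ofAdd 1, 1, 1]), rfl⟩, by simp [φ, hψ, ga]⟩
    have bM : b ∈ M := ⟨_, ⟨(1, ![1, .ofAdd 1, 1]), rfl⟩, by simp [φ, hψ, gb]⟩
    have eM : e ∈ M := ⟨_, ⟨(1, ![1, 1, .ofAdd 1]), rfl⟩, by simp [φ, hψ, ge]⟩
    have ZM : Z ≤ M := fun z hz => by
      rcases (s.cZ z).1 hz with rfl | rfl
      · exact one_mem _
      · rcases hc with rfl | rfl
        exacts [one_mem _, mul_mem dM dM]
    have RM : R ≤ M := fun x hx => by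
      rcases s.e8.cov ha hb he ⟨a1, b1, b2, e1, e2, e3, e4⟩ hx with k | k | k | k | k | k | k | k <;>
        simpa only [mul_mem_cancel_left aM, mul_mem_cancel_left bM, mul_mem_cancel_left eM] using ZM k
    obtain ⟨j, r, hr, k⟩ := s.gen q q.2
    obtain ⟨x, hx, e⟩ : q.1 ∈ M := k ▸ mul_mem (zpow_mem dM j) (RM hr)
    exact Subtype.ext e ▸ hx

/-- `L₃(2)` is simple of order `168` (`h9_card_psl32`, `sl_isQuasisimple`, `S168.index_ge`); the image of `O2 X` is a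
nontrivial normal subgroup; `C(Q) ≤ Q`, so `O2 X` centralizing `Q` gives `X = Q`. -/
theorem hy_of (hc : IsPConstrained 2 X) (hO : oddCore X = ⊥) (h4 : SectionalPRankLE 2 4 X) {F : Type*} [Field F]
    [Fintype F] (hF : Fintype.card F = 2) (hQ : Nonempty (X ⧸ pCore 2 X ≃* Matrix.ProjectiveSpecialLinearGroup (Fin 3) F)) :
    Hy (pCore 2 X) ∧ ¬ Tr (O2 X) (pCore 2 X) ⊥ := by
  obtain ⟨e⟩ := hQ
  have : IsSimpleGroup (Matrix.ProjectiveSpecialLinearGroup (Fin 3) F) :=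
    (sl_isQuasisimple (ι := Fin 3) (F := F) (by simp)).2
  have := e.isSimpleGroup
  have hc8 : Nat.card (X ⧸ pCore 2 X) = 168 := (Nat.card_congr e.toEquiv).trans (h9_card_psl32 hF)
  let π := QuotientGroup.mk' (pCore 2 X)
  have hπ := QuotientGroup.mk'_surjective (pCore 2 X)
  have cm : ∀ {H : Subgroup X}, pCore 2 X ≤ H → (H.map π).comap π = H := fun hH =>
    comap_map_eq_self (by rwa [QuotientGroup.ker_mk'])
  have o2 : (O2 X).map π = ⊤ := by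
    rw [map_O2 π hπ]
    refine O2_normal.eq_bot_or_eq_top.resolve_left fun k => ?_
    have : Fact (Nat.Prime 3) := ⟨Nat.prime_three⟩
    obtain ⟨x, hx⟩ := exists_prime_orderOf_dvd_card' (G := X ⧸ pCore 2 X) 3 (by rw [hc8]; norm_num)
    have := mem_O2 (x := x) (by rw [hx]; decide)
    rw [k, mem_bot] at this
    simp [this] at hx
  refine ⟨⟨inferInstance, isPGroup_pCore, hc8, fun K hK hQ => ?_, fun H hQ hH => ?_, fun x => ?_, r4_of h4⟩, fun k => ?_⟩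
  · refine ((hK.map π hπ).eq_bot_or_eq_top).imp (fun k => ?_) fun k => ?_
    · rw [← cm hQ, k, MonoidHom.comap_bot, QuotientGroup.ker_mk']
    · rw [← cm hQ, k, comap_top]
  · rw [← cm hQ, index_comap_of_surjective _ hπ]
    exact S168.index_ge hc8 fun k => hH (by rw [← cm hQ, k, comap_top])
  · obtain ⟨y, hy, k⟩ : π x ∈ (O2 X).map π := o2 ▸ mem_top _
    exact ⟨y, hy, QuotientGroup.eq.1 k⟩
  · have : O2 X ≤ pCore 2 X := fun y hy => centralizer_pCore_le_of_isPConstrained hc hO fun a ha =>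
      (mul_inv_eq_iff_eq_mul.1 (mul_inv_eq_one.1 (mem_bot.1 (k y hy a ha)))).symm
    rw [(Subgroup.map_eq_bot_iff _).2 (by rwa [QuotientGroup.ker_mk'])] at o2
    exact bot_ne_top o2

end Cfsg.Lib.L32
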