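import Cfsg.Agent.Lib.L32.Base
import Cfsg.Agent.Lib.PGroup.Basic

/-!
# Noncentral chief factors have order eight
-/

set_option autoImplicit false

namespace Cfsg.Lib.L32
open Subgroup

variable {X : Type*} [Group X] [Finite X] {Q : Subgroup X}

/-- the conjugacy class -/
def Cl (t : X) : Set X := {b | ∃ g, g * t * g⁻¹ = b}

omit [Finite X] in
theorem ncard_Cl (t : X) : (Cl t).ncard = (centralizer {t}).index := by
  have := @MulAction.index_stabilizer X X _ (MulAction.compHom X (MulAut.conj (G := X))) t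
  refine this.symm.trans (congrArg index (Subgroup.ext fun g => Iff.symm ?_))
  exact mem_centralizer_singleton_iff.trans (mul_inv_eq_iff_eq_mul (a := g * t) (b := g) (c := t)).symm

/-- A minimal normal noncentral `V ≤ Q`.  `V₀ = {v ∈ V | v² = 1, v ∈ C(Q)}` is normal and nontrivial, so `V = V₀`,
`|V| ≤ 16` by `r4`; `C(V) = Q` by `max`.  Every `1 ≠ t ∈ V` has `C(t) ≥ Q` proper (else `V = ⟨t⟩` is central), so its class
has size `≥ 7` (`idx7`) and `|V| ≥ 8`.  If `|V| = 16`: `t` fixed by a Sylow `2`-subgroup has class size an odd divisor of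
`168` in `[7, 15]`, so `7`; the other eight involutions form one class; for `t ≠ t'` in the class of size `7`, if `t t'`
is in the other class then `C(t) ⊓ C(t') ≤ C(t) ⊓ C(t t')` have index `≤ 49` and `56`.  So the class with `1` is a normal
subgroup of order `8`. -/
theorem Hy.e8_bot (h : Hy Q) {V : Subgroup X} [V.Normal] (VQ : V ≤ Q)
    (hm : ∀ K : Subgroup X, K.Normal → K ≤ V → K = ⊥ ∨ K = V) (hn : ¬ Tr (O2 X) V ⊥) : E8 Q V ⊥ := by
  have nQ := h.nQ
  have nV : V.Normal := inferInstance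
  have : Fact (Nat.Prime 2) := ⟨Nat.prime_two⟩
  have V0 : V ≠ ⊥ := fun e => hn fun y _ a ha => by simp [mem_bot.1 (e ▸ ha)]
  have pV : IsPGroup 2 V := h.pQ.to_le VQ
  have VC : V ≤ centralizer (Q : Set X) := by
    obtain ⟨x, hx, x2, hc⟩ := pg_exists_fixed_of_order_p pV h.pQ (by rw [normalizer_eq_top]; exact le_top) V0
    refine ((hm (V ⊓ centralizer (Q : Set X)) inferInstance inf_le_left).resolve_left fun e => ?_).ge.trans inf_le_right
    rw [mem_bot.1 (e.le (⟨hx, hc⟩ : x ∈ V ⊓ centralizer (Q : Set X)))] at x2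
    simp at x2
  have cm : ∀ {x y}, x ∈ V → y ∈ V → Commute x y := fun hx hy => VC hy _ (VQ hx)
  have sq : ∀ a ∈ V, a * a = 1 := by
    obtain ⟨x, hx, x2, -⟩ := pg_exists_fixed_of_order_p pV h.pQ (by rw [normalizer_eq_top]; exact le_top) V0
    let K : Subgroup X :=
      { carrier := {x | x ∈ V ∧ x * x = 1}
        one_mem' := by simp
        mul_mem' := fun {x y} hx hy => ⟨mul_mem hx.1 hy.1, by rw [(cm hy.1 hx.1).mul_mul_mul_comm, hx.2, hy.2, one_mul]⟩
        inv_mem' := fun {x} hx => ⟨inv_mem hx.1, by rw [← mul_inv_rev, hx.2, inv_one]⟩ }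
    have := (hm K ⟨fun x hx g => ⟨nV.conj_mem _ hx.1 g, by rw [conj_mul, hx.2]; simp⟩⟩ fun x hx => hx.1).resolve_left
      fun e => by
        rw [mem_bot.1 (e.le (⟨hx, by rw [← pow_two, ← x2, pow_orderOf_eq_one]⟩ : x ∈ K))] at x2
        simp at x2
    exact fun a ha => (this.ge ha).2
  have QC : ∀ {t}, t ∈ V → Q ≤ centralizer {t} := fun ht q hq => mem_centralizer_singleton_iff.2 (VC ht q hq)
  have ker : St V ⊥ = Q := (h.max (St V ⊥) inferInstance fun q hq a ha => by rw [VC ha q hq]; simp).resolve_right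
    fun e => hn fun y _ => (e.ge (mem_top y) : y ∈ St V ⊥)
  have c7 : ∀ {t}, t ∈ V → t ≠ 1 → 7 ≤ (Cl t).ncard := fun {t} ht t0 => ncard_Cl t ▸ h.idx7 _ (QC ht) fun e => by
    have k : ∀ g, Commute g t := fun g => mem_centralizer_singleton_iff.1 (e.ge (mem_top g))
    have := (hm (zpowers t) ⟨by rintro _ ⟨n, rfl⟩ g; simp [((k g).zpow_right n).eq]⟩ (zpowers_le.2 ht)).resolve_left
      (by simpa using t0)
    refine hn fun y _ a ha => ?_
    obtain ⟨n, rfl⟩ := this.ge ha
    simp [((k y).zpow_right n).eq]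
  have sub : ∀ {t}, t ∈ V → t ≠ 1 → Cl t ⊆ (V : Set X) \ {1} := by
    rintro t ht t0 _ ⟨g, rfl⟩
    exact ⟨nV.conj_mem t ht g, by simpa using t0⟩
  have cV : ((V : Set X) \ {1}).ncard + 1 = Nat.card V := by
    rw [Set.ncard_sdiff_singleton_add_one (one_mem V)]; rfl
  have le16 := h.r4 V ⊥ bot_le (by rw [normalizer_eq_top]; exact le_top) sq
  refine ⟨nV, inferInstance, bot_le, sq, ?_, fun x => by rw [← ker]; rfl, h.ind⟩
  rw [relIndex_bot_left] at le16 ⊢
  obtain ⟨P⟩ : Nonempty (Sylow 2 X) := inferInstance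
  obtain ⟨t, ht, t2, tP⟩ := pg_exists_fixed_of_order_p pV P.isPGroup' (by rw [normalizer_eq_top]; exact le_top) V0
  have t0 : t ≠ 1 := by rintro rfl; simp at t2
  have k1 := c7 ht t0
  have k2 := Set.ncard_le_ncard (sub ht t0)
  obtain ⟨n, hn'⟩ := IsPGroup.iff_card.1 pV
  have n4 : n ≤ 4 := (Nat.pow_le_pow_iff_right one_lt_two).1 (hn' ▸ le16)
  have n3 : n = 3 ∨ n = 4 := by interval_cases n <;> omega
  refine n3.elim (fun e => by rw [hn', e]; rfl) fun e => absurd ?_ V0
  rw [hn', e] at cV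
  have t7 : (Cl t).ncard = 7 := by
    have d1 : (Cl t).ncard ∣ 168 := ncard_Cl t ▸ h.ind ▸ index_dvd_of_le (QC ht)
    have d2 : ¬ 2 ∣ (Cl t).ncard := fun e => P.not_dvd_index (e.trans (ncard_Cl t ▸ index_dvd_of_le
      fun q hq => mem_centralizer_singleton_iff.2 (tP q hq)))
    have : (Cl t).ncard ≤ 15 := by omega
    generalize (Cl t).ncard = m at *
    interval_cases m <;> omega
  have cc : ∀ {a b : X}, a ∈ Cl b → Cl a = Cl b := by
    rintro _ b ⟨g, rfl⟩
    exact Set.ext fun x => ⟨fun ⟨k, e⟩ => ⟨k * g, by rw [← e]; group⟩, fun ⟨k, e⟩ => ⟨k * g⁻¹, by rw [← e]; group⟩⟩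
  have me : ∀ a : X, a ∈ Cl a := fun a => ⟨1, by simp⟩
  have c8 : (((V : Set X) \ {1}) \ Cl t).ncard = 8 := by
    have := Set.ncard_sdiff_add_ncard_of_subset (sub ht t0)
    omega
  have sub' : ∀ {s}, s ∈ ((V : Set X) \ {1}) \ Cl t → Cl s ⊆ ((V : Set X) \ {1}) \ Cl t := fun hs x hx =>
    ⟨sub hs.1.1 hs.1.2 hx, fun e => hs.2 (cc e ▸ cc hx ▸ me _)⟩
  have s8 : ∀ {s}, s ∈ ((V : Set X) \ {1}) \ Cl t → (Cl s).ncard = 8 := fun {s} hs => by
    have k1 := c7 hs.1.1 hs.1.2
    have k2 := Set.ncard_sdiff_add_ncard_of_subset (sub' hs)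
    by_contra hn
    obtain ⟨r, hr⟩ := Set.nonempty_of_ncard_ne_zero (s := (((V : Set X) \ {1}) \ Cl t) \ Cl s) (by omega)
    have k3 := c7 hr.1.1.1 hr.1.1.2
    have := Set.ncard_le_ncard (s := Cl r) (t := (((V : Set X) \ {1}) \ Cl t) \ Cl s) fun x hx =>
      ⟨sub' hr.1 hx, fun e => hr.2 (cc e ▸ cc hx ▸ me _)⟩
    omega
  let K : Subgroup X :=
    { carrier := {x | x = 1 ∨ x ∈ Cl t}
      one_mem' := .inl rfl
      mul_mem' := by
        rintro a b (rfl | ha) (rfl | hb)
        exacts [.inl (one_mul _), .inr (by simpa using hb), .inr (by simpa using ha), by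
          by_contra hn
          simp only [Set.mem_ofPred, not_or] at hn
          have e1 := s8 ⟨⟨mul_mem (sub ht t0 ha).1 (sub ht t0 hb).1, hn.1⟩, hn.2⟩
          have e2 := cc ha ▸ t7
          have e3 := cc hb ▸ t7
          rw [ncard_Cl] at e1 e2 e3
          have le : centralizer {a} ⊓ centralizer {b} ≤ centralizer {a * b} := fun g hg =>
            mem_centralizer_singleton_iff.2 (Commute.mul_right (mem_centralizer_singleton_iff.1 hg.1)
              (mem_centralizer_singleton_iff.1 hg.2))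
          have f1 := e1 ▸ index_dvd_of_le le
          have f2 := e2 ▸ index_dvd_of_le (inf_le_left : centralizer {a} ⊓ centralizer {b} ≤ _)
          have f3 := e3 ▸ e2 ▸ index_inf_le (H := centralizer {a}) (K := centralizer {b})
          have f4 : (centralizer {a} ⊓ centralizer {b} : Subgroup X).index ≠ 0 := index_ne_zero_of_finite
          omega]
      inv_mem' := by
        rintro a (rfl | ha)
        exacts [.inl inv_one, .inr (by rwa [inv_eq_of_mul_eq_one_right (sq a (sub ht t0 ha).1)])] }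
  rcases hm K ⟨by
    rintro a (rfl | ha) g
    exacts [.inl (by simp), .inr (cc ha ▸ ⟨g, rfl⟩)]⟩ (by
    rintro a (rfl | ha)
    exacts [one_mem _, (sub ht t0 ha).1]) with f | f
  · exact absurd (mem_bot.1 (f.le (Or.inr (me t) : t ∈ K))) t0
  · obtain ⟨r, hr⟩ := Set.nonempty_of_ncard_ne_zero (s := ((V : Set X) \ {1}) \ Cl t) (by omega)
    exact ((f.ge hr.1.1).elim hr.1.2 hr.2).elim

/-- the relative form: `Hy.map`, `tr_map`, `E8.comap` along `X → X / B` -/
theorem Hy.e8 (h : Hy Q) {A B : Subgroup X} [A.Normal] [B.Normal] (BA : B ≤ A) (AQ : A ≤ Q)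
    (hm : ∀ K : Subgroup X, K.Normal → B ≤ K → K ≤ A → K = B ∨ K = A) (hn : ¬ Tr (O2 X) A B) : E8 Q A B := by
  let π := QuotientGroup.mk' B
  have hπ : Function.Surjective π := QuotientGroup.mk'_surjective B
  have k : π.ker = B := QuotientGroup.ker_mk' B
  have := (‹A.Normal›).map π hπ
  have := ((h.map π hπ (k.le.trans (BA.trans AQ))).e8_bot (map_mono AQ) (fun K nK KA => ?_) (by
    rwa [tr_map π hπ, MonoidHom.comap_bot, k])).comap π hπ
  · rwa [comap_map_eq_self (k.le.trans (BA.trans AQ)), comap_map_eq_self (k.le.trans BA), MonoidHom.comap_bot, k] at this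
  rcases hm (K.comap π) inferInstance (k.ge.trans (ker_le_comap π K)) (by
    rw [← comap_map_eq_self (f := π) (k.le.trans BA)]; exact comap_mono KA) with e | e
  · exact .inl (by rw [← map_comap_eq_self_of_surjective hπ K, e, Subgroup.map_eq_bot_iff, k])
  · exact .inr (by rw [← e, map_comap_eq_self_of_surjective hπ])

end Cfsg.Lib.L32
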