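import Cfsg.Agent.Lib.L32.E8
import Cfsg.Agent.Lib.L32.W1
import Cfsg.Agent.Lib.PGroup.Frattini

/-!
# One noncentral chief factor
-/

set_option autoImplicit false

namespace Cfsg.Lib.L32
open Subgroup

variable {X : Type*} [Group X] [Finite X] {Q : Subgroup X}

theorem E8.tr2Y {A B : Subgroup X} (h : E8 Q A B) (hy : Hy Q) {a b a' b' : X} (ha : a ∈ A) (hb : b ∈ A)
    (h1 : a ∉ B) (h2 : b ∉ B) (h3 : a * b ∉ B) (ha' : a' ∈ A) (hb' : b' ∈ A) (k1 : a' ∉ B) (k2 : b' ∉ B)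
    (k3 : a' * b' ∉ B) : ∃ g ∈ O2 X, g * a * g⁻¹ * a'⁻¹ ∈ B ∧ g * b * g⁻¹ * b'⁻¹ ∈ B := by
  obtain ⟨c, hc, c1, c2, c3, c4⟩ := h.ext ha hb
  obtain ⟨c', hc', d1, d2, d3, d4⟩ := h.ext ha' hb'
  obtain ⟨g, hg, e1, e2, -⟩ := h.tr3Y hy ha hb hc ⟨h1, h2, h3, c1, c2, c3, c4⟩ ha' hb' hc' ⟨k1, k2, k3, d1, d2, d3, d4⟩
  exact ⟨g, hg, e1, e2⟩

theorem E8.tr1Y {A B : Subgroup X} (h : E8 Q A B) (hy : Hy Q) {a a' : X} (ha : a ∈ A) (h1 : a ∉ B) (ha' : a' ∈ A)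
    (k1 : a' ∉ B) : ∃ g ∈ O2 X, g * a * g⁻¹ * a'⁻¹ ∈ B := by
  obtain ⟨c, hc, c1, c2, -⟩ := h.ext ha (one_mem A)
  obtain ⟨c', hc', d1, d2, -⟩ := h.ext ha' (one_mem A)
  obtain ⟨g, hg, e1, -⟩ := h.tr2Y hy ha hc h1 c1 c2 ha' hc' k1 d1 d2
  exact ⟨g, hg, e1⟩

/-- the hypotheses on `R = ⁅Y, Q⁆` and `Z = R ⊓ C(Y)` -/
structure Pre (Q R Z : Subgroup X) : Prop where
  hy : Hy Q
  le : R ≤ Q
  leY : R ≤ O2 X
  e8 : E8 Q R Z
  trQ : Tr (O2 X) Q R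
  memZ : ∀ z, z ∈ Z ↔ z ∈ R ∧ ∀ y ∈ O2 X, y * z * y⁻¹ = z
  minR : ∀ K : Subgroup X, K.Normal → Tr (O2 X) R K → R ≤ K
  one : ∀ K : Subgroup X, K.Normal → K ≤ Q → Tr (O2 X) K ⊥ ∨ R ≤ K

theorem Hy.pre (h : Hy Q) (h1 : One Q) (hn : ¬ Tr (O2 X) Q ⊥) : ∃ R Z, Pre Q R Z := by
  have := h.nQ
  let R : Subgroup X := ⁅O2 X, Q⁆
  have tr : Tr (O2 X) Q R := fun y hy a ha => commutator_mem_commutator hy ha
  have A : ∀ K : Subgroup X, Tr (O2 X) Q K → R ≤ K := fun K hK => commutator_le.2 fun y hy a ha => hK y hy a ha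
  have RQ : R ≤ Q := commutator_le_right _ _
  have C : ∀ K : Subgroup X, K.Normal → Tr (O2 X) R K → R ≤ K := fun K _ hK => A K (Tr.trans h.pQ RQ tr hK)
  have B : ∀ K : Subgroup X, K.Normal → K ≤ Q → Tr (O2 X) K ⊥ ∨ R ≤ K := fun K hK KQ => (h1 K hK KQ).imp id (A K)
  let Z : Subgroup X := R ⊓ centralizer (O2 X : Set X)
  have mZ : ∀ z, z ∈ Z ↔ z ∈ R ∧ ∀ y ∈ O2 X, y * z * y⁻¹ = z := fun z =>
    and_congr_right fun _ => forall₂_congr fun y _ => mul_inv_eq_iff_eq_mul.symm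
  refine ⟨R, Z, h, RQ, commutator_le_left _ _, h.e8 inf_le_left RQ (fun K hK ZK KR => ?_) fun e => ?_, tr, mZ, C, B⟩
  · refine (B K hK (KR.trans RQ)).imp (fun e => le_antisymm (fun x hx => (mZ x).2 ⟨KR hx, fun y hy => ?_⟩) ZK)
      (le_antisymm KR)
    exact mul_inv_eq_one.1 (mem_bot.1 (e y hy x hx))
  · have := C Z inferInstance e
    exact hn (tr.mono le_rfl (C ⊥ inferInstance fun y hy a ha =>
      mem_bot.2 (mul_inv_eq_one.2 (((mZ a).1 (this ha)).2 y hy))))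

namespace Pre
variable {R Z : Subgroup X} (p : Pre Q R Z)
include p

theorem zc {z r : X} (hz : z ∈ Z) (hr : r ∈ R) : r * z * r⁻¹ = z := ((p.memZ z).1 hz).2 r (p.leY hr)

theorem cz {s r : X} (hs : s ∈ Q) (hr : r ∈ R) : s * r * s⁻¹ * r⁻¹ ∈ Z := (p.e8.ker s).2 hs r hr

theorem comm_eq {a b a' b' g : X} (ha : a ∈ R) (hb : b ∈ R) (ha' : a' ∈ R) (hb' : b' ∈ R) (hg : g ∈ O2 X)
    (e1 : g * a * g⁻¹ * a'⁻¹ ∈ Z) (e2 : g * b * g⁻¹ * b'⁻¹ ∈ Z) : a * b * a⁻¹ * b⁻¹ = a' * b' * a'⁻¹ * b'⁻¹ := by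
  obtain ⟨z, hz⟩ : ∃ z, z = g * a * g⁻¹ * a'⁻¹ := ⟨_, rfl⟩
  obtain ⟨w, hw⟩ : ∃ w, w = g * b * g⁻¹ * b'⁻¹ := ⟨_, rfl⟩
  rw [← hz] at e1
  rw [← hw] at e2
  have k1 : g * a * g⁻¹ = z * a' := by rw [hz]; group
  have k2 : g * b * g⁻¹ = w * b' := by rw [hw]; group
  have zc' : ∀ {z r : X}, z ∈ Z → r ∈ R → z * r * z⁻¹ = r := fun hz hr =>
    mul_inv_eq_iff_eq_mul.2 (mul_inv_eq_iff_eq_mul.1 (p.zc hz hr)).symm
  have k3 := p.zc e2 ha'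
  have k4 := zc' e1 (mul_mem (mul_mem ha' (mul_mem (p.e8.le e2) hb')) (inv_mem ha'))
  have k5 := zc' e2 (mul_mem (mul_mem (mul_mem ha' hb') (inv_mem ha')) (inv_mem hb'))
  calc _ = g * (a * b * a⁻¹ * b⁻¹) * g⁻¹ := (((p.memZ _).1 (p.cz (p.le ha) hb)).2 g hg).symm
    _ = g * a * g⁻¹ * (g * b * g⁻¹) * (g * a * g⁻¹)⁻¹ * (g * b * g⁻¹)⁻¹ := by group
    _ = z * (a' * (w * b') * a'⁻¹) * z⁻¹ * (w * b')⁻¹ := by rw [k1, k2]; group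
    _ = a' * w * a'⁻¹ * (a' * b' * a'⁻¹ * b'⁻¹) * w⁻¹ := by rw [k4]; group
    _ = _ := by rw [k3, k5]

theorem abR {a b : X} (ha : a ∈ R) (hb : b ∈ R) : a * b = b * a := by
  by_cases h1 : a ∈ Z
  · exact (mul_inv_eq_iff_eq_mul.1 (p.zc h1 hb)).symm
  by_cases h2 : b ∈ Z
  · exact mul_inv_eq_iff_eq_mul.1 (p.zc h2 ha)
  by_cases h3 : a * b ∈ Z
  · have := mul_inv_eq_iff_eq_mul.1 (p.zc h3 ha)
    rw [mul_assoc] at this
    exact mul_left_cancel this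
  obtain ⟨c, hc, c1, c2, c3, c4⟩ := p.e8.ext ha hb
  obtain ⟨g, hg, e1, e2⟩ := p.e8.tr2Y p.hy ha hb h1 h2 h3 ha hc h1 c1 c2
  obtain ⟨g', hg', f1, f2⟩ := p.e8.tr2Y p.hy ha hb h1 h2 h3 ha (mul_mem hb hc) h1 c3 c4
  have k1 := p.comm_eq ha hb ha hc hg e1 e2
  have k2 := p.comm_eq ha hb ha (mul_mem hb hc) hg' f1 f2
  have k3 := p.zc (p.cz (p.le ha) hc) hb
  have k4 : a * (b * c) * a⁻¹ * (b * c)⁻¹ = a * b * a⁻¹ * b⁻¹ * (b * (a * c * a⁻¹ * c⁻¹) * b⁻¹) := by group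
  rw [k4, k3, ← k1, left_eq_mul] at k2
  exact mul_inv_eq_iff_eq_mul.1 (mul_inv_eq_one.1 k2)

theorem sqR {a : X} (ha : a ∈ R) : a * a = 1 := by
  have := p.e8.nA
  let K : Subgroup X :=
    { carrier := {r | r ∈ R ∧ r * r = 1}
      one_mem' := ⟨one_mem _, mul_one _⟩
      mul_mem' := fun {x y} hx hy => ⟨mul_mem hx.1 hy.1, by
        rw [mul_assoc, ← mul_assoc y, ← p.abR hx.1 hy.1, mul_assoc, hy.2, mul_one, hx.2]⟩
      inv_mem' := fun {x} hx => ⟨inv_mem hx.1, by rw [← mul_inv_rev, hx.2, inv_one]⟩ }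
  refine (p.minR K ⟨fun x hx g => ⟨this.conj_mem _ hx.1 g, by rw [conj_mul, hx.2]; simp⟩⟩ (fun y hy r hr => ?_) ha).2
  have h1 := this.conj_mem _ hr y
  refine ⟨mul_mem h1 (inv_mem hr), ?_⟩
  have k := ((p.memZ _).1 (p.e8.sq r hr)).2 y hy
  calc _ = y * r * y⁻¹ * (r⁻¹ * (y * r * y⁻¹)) * r⁻¹ := by group
    _ = y * (r * r) * y⁻¹ * (r * r)⁻¹ := by rw [← p.abR h1 (inv_mem hr)]; group
    _ = 1 := by rw [k, mul_inv_cancel]

theorem cZ : ∃ c, ∀ z, z ∈ Z ↔ z = 1 ∨ z = c := by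
  have := p.e8.nA
  have h1 := p.hy.r4 R ⊥ bot_le (by rw [normalizer_eq_top]; exact le_top) fun x hx => mem_bot.2 (p.sqR hx)
  rw [← relIndex_mul_relIndex ⊥ Z R bot_le p.e8.le, p.e8.idx, relIndex_bot_left] at h1
  by_cases e : Z = ⊥
  · exact ⟨1, fun z => by simp [e]⟩
  obtain ⟨c, hc, c1⟩ := (Z.bot_or_exists_ne_one).resolve_left e
  refine ⟨c, fun z => ⟨fun hz => ?_, by rintro (rfl | rfl); exacts [one_mem _, hc]⟩⟩
  by_contra! k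
  have := Set.ncard_le_ncard (s := {1, c, z}) (t := (Z : Set X)) (by
    rintro _ (rfl | rfl | rfl); exacts [one_mem _, hc, hz])
  rw [Set.ncard_eq_three.2 ⟨_, _, _, c1.symm, k.1.symm, k.2.symm, rfl⟩] at this
  change 3 ≤ Nat.card Z at this
  omega

theorem cQ {s a : X} (hs : s ∈ Q) (ha : a ∈ R) : s * a = a * s := by
  have := p.e8.nA
  have := p.hy.nQ
  refine (p.minR (R ⊓ centralizer (Q : Set X)) inferInstance (fun y hy r hr => ?_) ha).2 s hs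
  have h1 := p.e8.nA.conj_mem _ hr y
  refine ⟨R.mul_mem h1 (R.inv_mem hr), fun s (hs : s ∈ Q) => ?_⟩
  obtain ⟨t, ht⟩ : ∃ t, t = y⁻¹ * s⁻¹ * y⁻¹⁻¹ * s⁻¹⁻¹ := ⟨_, rfl⟩
  have tR : t ∈ R := ht ▸ p.trQ _ (inv_mem hy) _ (inv_mem hs)
  have k1 : y⁻¹ * s * y = s * t⁻¹ := by rw [ht]; group
  have k2 := ((p.memZ _).1 (p.cz hs hr)).2 y hy
  have k3 := p.abR (inv_mem tR) hr
  obtain ⟨z, hz⟩ : ∃ z, z = s * r * s⁻¹ * r⁻¹ := ⟨_, rfl⟩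
  have zZ : z ∈ Z := hz ▸ p.cz hs hr
  have k4 : s * r * s⁻¹ = z * r := by rw [hz]; group
  have k5 : s * (y * r * y⁻¹) * s⁻¹ = z * (y * r * y⁻¹) := by
    calc _ = y * (y⁻¹ * s * y * r * (y⁻¹ * s * y)⁻¹) * y⁻¹ := by group
      _ = y * (s * (t⁻¹ * r) * t * s⁻¹ * r⁻¹) * y⁻¹ * (y * r * y⁻¹) := by rw [k1]; group
      _ = y * (s * r * s⁻¹ * r⁻¹) * y⁻¹ * (y * r * y⁻¹) := by rw [k3]; group
      _ = _ := by rw [k2, hz]
  have k6 := p.zc zZ (mul_mem h1 (inv_mem hr))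
  refine mul_inv_eq_iff_eq_mul.1 ?_
  calc _ = s * (y * r * y⁻¹) * s⁻¹ * (s * r * s⁻¹)⁻¹ := by group
    _ = z * (y * r * y⁻¹ * r⁻¹) * z⁻¹ := by rw [k4, k5]; group
    _ = _ := mul_inv_eq_iff_eq_mul.2 (mul_inv_eq_iff_eq_mul.1 k6).symm

theorem gen : ∃ d ∈ Q, ∀ q ∈ Q, ∃ j : ℤ, ∃ r ∈ R, q = d ^ j * r := by
  have nR := p.e8.nA
  have nQ := p.hy.nQ
  let N : Subgroup X := closure {x | ∃ q ∈ Q, q * q = x}
  have NQ : N ≤ Q := (closure_le _).2 (by rintro _ ⟨q, hq, rfl⟩; exact mul_mem hq hq)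
  have nN : N.Normal := ⟨fun x hx g => by
    have : N.map (MulAut.conj g).toMonoidHom ≤ N := by
      rw [MonoidHom.map_closure, closure_le]
      rintro _ ⟨_, ⟨q, hq, rfl⟩, rfl⟩
      exact subset_closure ⟨_, nQ.conj_mem q hq g, by simp [conj_mul]⟩
    exact this (mem_map_of_mem _ hx)⟩
  have NC : N ≤ centralizer (O2 X : Set X) := (closure_le _).2 (by
    rintro _ ⟨q, hq, rfl⟩ y hy
    obtain ⟨t, ht⟩ : ∃ t, t = y * q * y⁻¹ * q⁻¹ := ⟨_, rfl⟩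
    have tR : t ∈ R := ht ▸ p.trQ y hy q hq
    have k : y * q * y⁻¹ = t * q := by rw [ht]; group
    refine mul_inv_eq_iff_eq_mul.1 ?_
    rw [← conj_mul, k, mul_assoc, ← mul_assoc q, p.cQ hq tR, mul_assoc, ← mul_assoc, p.sqR tR, one_mul])
  have h1 := p.hy.r4 Q N NQ (by rw [normalizer_eq_top]; exact le_top) fun x hx => subset_closure ⟨x, hx, rfl⟩
  have h2 : 8 ≤ N.relIndex (R ⊔ N) := by
    rw [relIndex_sup_right, ← inf_relIndex_right, ← p.e8.idx]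
    exact relIndex_le_of_le_left (fun z hz => (p.memZ z).2 ⟨hz.2, fun y hy =>
      mul_inv_eq_iff_eq_mul.2 (NC hz.1 y hy)⟩) (index_ne_zero_of_finite)
  have h3 := relIndex_mul_relIndex N (R ⊔ N) Q le_sup_right (sup_le p.le NQ)
  have h4 : (R ⊔ N).relIndex Q ≠ 0 := index_ne_zero_of_finite
  have h5 : (R ⊔ N).relIndex Q = 1 ∨ (R ⊔ N).relIndex Q = 2 := by
    have : (R ⊔ N).relIndex Q ≤ 2 := by nlinarith
    omega
  obtain ⟨d, dQ, hd⟩ : ∃ d ∈ Q, Q ≤ (zpowers d ⊔ R) ⊔ N := by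
    rcases h5 with e | e
    · exact ⟨1, one_mem _, (relIndex_eq_one.1 e).trans (sup_le_sup_right le_sup_right _)⟩
    · obtain ⟨d, dQ, hd⟩ := relIindex_eq_two_iff'.1 e
      have l : R ⊔ N ≤ (zpowers d ⊔ R) ⊔ N := sup_le_sup_right le_sup_right _
      refine ⟨d, dQ, fun q hq => ?_⟩
      rcases hd q hq with k | k
      · exact (mul_mem_cancel_left (mem_sup_left (mem_sup_left (mem_zpowers d)))).1 (l k.1)
      · exact l k.1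
  have h6 : (zpowers d ⊔ R).subgroupOf Q = ⊤ := by
    refine frattini_nongenerating (eq_top_iff.2 fun q _ => ?_)
    obtain ⟨a, ha, n, hn, e⟩ := mem_sup_of_normal_right.1 (hd q.2)
    have aQ : a ∈ Q := sup_le (zpowers_le.2 dQ) p.le ha
    rw [show q = ⟨a, aQ⟩ * ⟨n, NQ hn⟩ from Subtype.ext e.symm]
    refine mul_mem (mem_sup_left ha) (mem_sup_right ?_)
    have : N ≤ (frattini Q).map Q.subtype := (closure_le _).2 (by
      rintro _ ⟨q, hq, rfl⟩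
      exact ⟨_, pg_pow_mem_frattini p.hy.pQ ⟨q, hq⟩, by simp [sq]⟩)
    obtain ⟨m, hm, rfl⟩ := this hn
    exact hm
  refine ⟨d, dQ, fun q hq => ?_⟩
  obtain ⟨_, ⟨j, rfl⟩, r, hr, e⟩ := mem_sup_of_normal_right.1 (subgroupOf_eq_top.1 h6 hq)
  exact ⟨j, r, hr, e.symm⟩

theorem uni {c : X} (hc : ∀ z, z ∈ Z ↔ z = 1 ∨ z = c) (c1 : c ≠ 1) {x : X} (hx : x ∈ R) (xZ : x ∉ Z) :
    ∃ g ∈ O2 X, g * x * g⁻¹ = x * c := by
  by_contra! hn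
  have nR := p.e8.nA
  have cZ : c ∈ Z := (hc c).2 (.inr rfl)
  have cR : c ∈ R := p.e8.le cZ
  have cY : ∀ y ∈ O2 X, y * c * y⁻¹ = c := ((p.memZ c).1 cZ).2
  let O : X → Prop := fun w => ∃ g ∈ O2 X, g * x * g⁻¹ = w
  have OR : ∀ {w}, O w → w ∈ R := by rintro _ ⟨g, -, rfl⟩; exact nR.conj_mem x hx g
  have OZ : ∀ {w}, O w → w ∉ Z := by
    rintro _ ⟨g, -, rfl⟩ e
    exact xZ (by simpa [mul_assoc] using p.e8.nB.conj_mem' _ e g)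
  have Oc : ∀ {w g}, O w → g ∈ O2 X → O (g * w * g⁻¹) := by
    rintro _ g ⟨k, hk, rfl⟩ hg
    exact ⟨g * k, mul_mem hg hk, by group⟩
  have Ou : ∀ {a b}, O a → O b → a * b⁻¹ ∈ Z → a = b := by
    rintro _ _ ⟨g, hg, rfl⟩ ⟨k, hk, rfl⟩ e
    refine ((hc _).1 e).elim mul_inv_eq_one.1 fun e => (hn (k⁻¹ * g) (mul_mem (inv_mem hk) hg) ?_).elim
    rw [← p.cQ (p.le cR) hx, ← cY _ (inv_mem hk), ← e]; group
  have Oe : ∀ {w}, w ∈ R → w ∉ Z → O w ∨ O (w * c) := fun {w} hw wZ => by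
    obtain ⟨g, hg, e⟩ := p.e8.tr1Y p.hy hx xZ hw wZ
    refine ((hc _).1 e).imp (fun e => ⟨g, hg, mul_inv_eq_one.1 e⟩) fun e => ⟨g, hg, ?_⟩
    rw [p.abR hw cR, ← e]; group
  have inv : ∀ {w}, w ∈ R → w⁻¹ = w := fun hw => inv_eq_of_mul_eq_one_right (p.sqR hw)
  obtain ⟨b, Ob, xb⟩ : ∃ b, O b ∧ x * b ∉ Z := by
    obtain ⟨b, hb, b1, b2, -⟩ := p.e8.ext hx (one_mem R)
    rcases Oe hb b1 with e | e
    · exact ⟨b, e, b2⟩
    · exact ⟨_, e, fun k => b2 (by rw [← mul_assoc] at k; exact (mul_mem_cancel_right cZ).1 k)⟩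
  have Ox : O x := ⟨1, one_mem _, by simp⟩
  obtain ⟨e, eZ, he⟩ : ∃ e ∈ Z, O (x * b * e) :=
    (Oe (mul_mem hx (OR Ob)) xb).elim (fun k => ⟨1, one_mem _, by simpa using k⟩) fun k => ⟨c, cZ, k⟩
  have eR := p.e8.le eZ
  have eY := ((p.memZ e).1 eZ).2
  have Om : ∀ {a a'}, O a → O a' → a ≠ a' → O (a * a' * e) := fun {a a'} ha ha' ne => by
    obtain ⟨g, hg, e1, e2⟩ := p.e8.tr2Y p.hy hx (OR Ob) xZ (OZ Ob) xb (OR ha) (OR ha') (OZ ha) (OZ ha')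
      fun k => ne (Ou ha ha' (by rwa [inv (OR ha')]))
    have := Oc he hg
    rwa [← conj_mul, ← conj_mul, eY g hg, Ou (Oc Ox hg) ha e1, Ou (Oc Ob hg) ha' e2] at this
  let K : Subgroup X :=
    { carrier := {w | w = 1 ∨ O (w * e)}
      one_mem' := .inl rfl
      mul_mem' := by
        rintro a a' (rfl | ha) (rfl | ha')
        · exact .inl (mul_one _)
        · exact .inr (by rwa [one_mul])
        · exact .inr (by rwa [mul_one])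
        have aR := (mul_mem_cancel_right eR).1 (OR ha)
        have aR' := (mul_mem_cancel_right eR).1 (OR ha')
        by_cases ne : a = a'
        · exact .inl (ne ▸ p.sqR aR)
        have := Om ha ha' fun k => ne (mul_right_cancel k)
        rw [mul_assoc a, ← mul_assoc e, ← p.abR aR' eR, mul_assoc a', p.sqR eR, mul_one] at this
        exact .inr this
      inv_mem' := by
        rintro a (rfl | ha)
        · exact .inl inv_one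
        · rw [inv ((mul_mem_cancel_right eR).1 (OR ha))]; exact .inr ha }
  have KR : K ≤ R := by
    rintro a (rfl | ha)
    exacts [one_mem _, (mul_mem_cancel_right eR).1 (OR ha)]
  have nK : K.Normal := ⟨fun a ha g => by
    obtain ⟨y, hy, k⟩ := p.hy.cov g
    have : g * a * g⁻¹ = y * a * y⁻¹ := by
      calc _ = y * (y⁻¹ * g * a) * g⁻¹ := by group
        _ = _ := by rw [p.cQ k (KR ha)]; group
    rw [this]
    rcases ha with rfl | ha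
    · exact .inl (by simp)
    · have := Oc ha hy
      rw [← conj_mul, eY y hy] at this
      exact .inr this⟩
  rcases p.one K nK (KR.trans p.le) with k | k
  · have h1 : x * e ∈ K := .inr (by rwa [mul_assoc, p.sqR eR, mul_one])
    exact xZ ((mul_mem_cancel_right eZ).1 ((p.memZ _).2 ⟨KR h1, fun y hy => mul_inv_eq_one.1 (mem_bot.1 (k y hy _ h1))⟩))
  · exact (k cR).elim c1 fun k => OZ k (mul_mem cZ eZ)

end Pre

/-- `Y = O2 X`, `R = ⁅Y, Q⁆ ≤ Y ⊓ Q`, `Z = R ⊓ C(Y)`. -/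
theorem Hy.str (h : Hy Q) (h1 : One Q) (hn : ¬ Tr (O2 X) Q ⊥) : ∃ R Z c d, Str Q R Z c d := by
  obtain ⟨R, Z, p⟩ := h.pre h1 hn
  obtain ⟨c, hc⟩ := p.cZ
  obtain ⟨d, dQ, hd⟩ := p.gen
  refine ⟨R, Z, c, d, p.le, p.e8, fun r => p.sqR, p.trQ, p.memZ, hc, fun x hx y hy => ?_, fun c1 x hx xZ =>
    p.uni hc c1 hx xZ, dQ, hd⟩
  obtain ⟨i, r, hr, rfl⟩ := hd x hx
  obtain ⟨j, s, hs, e⟩ := hd y hy
  have k : Commute (d ^ i) y := e ▸ (Commute.zpow_zpow_self d i j).mul_right (p.cQ (zpow_mem dQ i) hs)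
  exact (k.mul_left (p.cQ hy hr).symm).eq

end Cfsg.Lib.L32
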