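import Mathlib

/-!
# Additive computations for an abelian group extended by `A₄`
-/

set_option autoImplicit false

namespace Cfsg.Lib.L32

variable {M : Type*} [AddCommGroup M]

/-- the data of an extension of the abelian group `M` by `A₄` -/
structure Md (T1 T2 T3 σ : M →+ M) (s : M) : Prop where
  t1 : ∀ x, T1 (T1 x) = x
  t12 : ∀ x, T1 (T2 x) = T3 x
  s1 : ∀ x, T2 (σ x) = σ (T1 x)
  s2 : ∀ x, T3 (σ x) = σ (T2 x)
  s3 : ∀ x, σ (σ (σ x)) = x
  f1 : T1 s = s
  f2 : T2 s = s - T1 (s + σ s + σ (σ s)) - (s + σ s + σ (σ s))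

/-- the data of an elementary abelian section of rank five -/
def Good (T1 T2 T3 σ : M →+ M) (s : M) : Prop :=
  ∃ (w b1 b2 b3 : M) (N : AddSubgroup M), (∀ n ∈ N, T1 n ∈ N ∧ T2 n ∈ N) ∧ s + T1 w + w ∈ N ∧
    σ (s + T1 w + w) ∈ N ∧ T3 (T2 w + σ w) + (T2 w + σ w) - σ (σ s) ∈ N ∧
    (∀ b, b = b1 ∨ b = b2 ∨ b = b3 → b + b ∈ N ∧ T1 b - b ∈ N ∧ T2 b - b ∈ N) ∧
    b1 ∉ N ∧ (∀ b, b = b2 ∨ b = b3 ∨ b = b2 + b3 → b ∉ N ∧ b1 + b ∉ N)


namespace Md
variable {T1 T2 T3 σ : M →+ M} {s : M} (h : Md T1 T2 T3 σ s)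
include h

theorem inj {x y : M} (e : σ x = σ y) : x = y := by rw [← h.s3 x, e, h.s3]

/-- a fixed vector moved by a fixed vector of order two is not moved -/
theorem fix {x e : M} (hx : σ x = x) (he : σ e = e) (h1 : T1 x = x + e) (h2 : T1 e = e) (h3 : e + e = 0) :
    T1 x = x ∧ T2 x = x ∧ T3 x = x := by
  have a2 : T2 x = x + e := by rw [← hx, h.s1, h1, map_add, he]
  have a3 : T3 x = x + e := by rw [← hx, h.s2, a2, map_add, he]
  have := h.t12 x
  rw [a2, map_add, h1, h2, a3] at this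
  have e0 : e = 0 := by linear_combination (norm := module) this
  simp [h1, a2, a3, e0]

theorem good {w b1 b2 : M} (N : AddSubgroup M) (hN : ∀ n ∈ N, T1 n = n ∧ σ n = n) (hb : σ b1 = b1)
    (h1 : s + T1 w + w ∈ N) (h3 : T3 (T2 w + σ w) + (T2 w + σ w) - σ (σ s) ∈ N)
    (h4 : ∀ b, b = b1 ∨ b = b2 ∨ b = σ b2 → b + b ∈ N ∧ T1 b - b ∈ N ∧ T2 b - b ∈ N) (h5 : b1 ∉ N)
    (h6 : b2 + b2 = 0) (h7 : b2 + σ b2 + σ (σ b2) = 0) (h8 : b2 ≠ 0) : Good T1 T2 T3 σ s := by
  refine ⟨w, b1, b2, σ b2, N, fun n hn => ⟨(hN n hn).1.symm ▸ hn, ?_⟩, h1, (hN _ h1).2.symm ▸ h1, h3, h4, h5, ?_⟩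
  · rw [← (hN n hn).2, h.s1, (hN n hn).1, (hN n hn).2]; exact hn
  have k1 : σ b2 ≠ b2 := fun e => h8 (by rw [e, e] at h7; linear_combination (norm := module) h7 - h6)
  have k2 : ∀ b, b = b2 ∨ b = σ b2 ∨ b = b2 + σ b2 → σ b ≠ b := by
    rintro _ (rfl | rfl | rfl) e
    exacts [k1 e, k1 (h.inj e), k1 (h.inj (h.inj (by rw [h.s3]; rw [map_add] at e; linear_combination (norm := module) e.symm)))]
  exact fun b hb' => ⟨fun e => k2 b hb' (hN _ e).2, fun e => k2 b hb' (by
    have := (hN _ e).2; rw [map_add, hb] at this; linear_combination (norm := module) this)⟩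

theorem m2' (R : AddSubgroup M) (hT : ∀ x ∈ R, T1 x ∈ R) (hσ : ∀ x ∈ R, σ x ∈ R) {y w c : M} (yR : y ∈ R) (wR : w ∈ R)
    (hw : w + σ w + σ (σ w) = 0) (hy : σ y = y) (hc : σ c = c) (c2 : c + c = 0)
    (cov : ∀ x ∈ R, ∃ p o, (p = 0 ∨ p = y) ∧ (o = 0 ∨ o = w ∨ o = σ w ∨ o = σ (σ w)) ∧ x + x = p + p + (o + o))
    (y4 : y + y + (y + y) = 0) (w4 : w + w + (w + w) = 0)
    (zc : ∀ x ∈ R, x + x = 0 → ∃ r ∈ R, x = r + r ∨ x = r + r + c) (y0 : y + y ≠ 0) (w0 : w + w ≠ 0)
    (wy : w + w ≠ y + y) (a1 : T1 w + T1 w = w + w) (a3 : T1 y + T1 y = y + y)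
    (a2 : ∃ r ∈ R, T1 (σ w) = σ w + y + (r + r))
    (b1 : σ s - s ∈ R) (b2 : s + s + (s + s) = 0) : Good T1 T2 T3 σ s := by
  obtain ⟨z, hz⟩ : ∃ z, z = y + y := ⟨_, rfl⟩
  obtain ⟨a, ha⟩ : ∃ a, a = w + w := ⟨_, rfl⟩
  have z2 : z + z = 0 := hz ▸ y4
  have aa : a + a = 0 := ha ▸ w4
  have bb : σ a + σ a = 0 := by rw [← map_add, aa, map_zero]
  have sz : σ z = z := by rw [hz, map_add, hy]
  have sa : a + σ a + σ (σ a) = 0 := by simp only [ha, map_add]; linear_combination (norm := module) (2 : ℤ) • hw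
  have om : ∀ r ∈ R, ∃ p o, (p = 0 ∨ p = z) ∧ (o = 0 ∨ o = a ∨ o = σ a ∨ o = σ (σ a)) ∧ r + r = p + o := fun r hr => by
    obtain ⟨p, o, hp, ho, e⟩ := cov r hr
    exact ⟨p + p, o + o, by rcases hp with rfl | rfl <;> simp [hz],
      by rcases ho with rfl | rfl | rfl | rfl <;> simp [ha], e⟩
  have r4 : ∀ r ∈ R, r + r + (r + r) = 0 := fun r hr => by
    obtain ⟨p, o, hp, ho, e⟩ := om r hr
    have : p + p = 0 := by rcases hp with rfl | rfl <;> simp [z2]
    have : o + o = 0 := by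
      rcases ho with rfl | rfl | rfl | rfl
      exacts [by simp, aa, bb, by rw [← map_add, bb, map_zero]]
    rw [e]; linear_combination (norm := module) ‹p + p = 0› + this
  obtain ⟨r2, hr2, a2⟩ := a2
  have tz : T1 z = z := by rw [hz, map_add, a3]
  have ta : T1 a = a := by rw [ha, map_add, a1]
  have tb : T1 (σ a) = σ a + z := by simp only [ha, hz, map_add, a2]; linear_combination (norm := module) r4 _ hr2
  have tc : T1 (σ (σ a)) = σ (σ a) + z := by
    have := congrArg T1 sa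
    simp only [map_add, map_zero, ta, tb] at this
    linear_combination (norm := module) this - sa - z2
  -- the action on doubles
  have d1 : ∀ r ∈ R, T1 (r + r) = r + r ∨ T1 (r + r) = r + r + z := fun r hr => by
    obtain ⟨p, o, hp, ho, e⟩ := om r hr
    have : T1 p = p := by rcases hp with rfl | rfl <;> simp [tz]
    rw [e, map_add, this]
    rcases ho with rfl | rfl | rfl | rfl <;> simp [ta, tb, tc, add_assoc]
  have zN : ∀ {x e}, σ x = x → (T1 x = x + e) → (e = 0 ∨ e = z) → T1 x = x ∧ T2 x = x ∧ T3 x = x := by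
    rintro x e hx he (rfl | rfl)
    exacts [h.fix hx (map_zero _) he (map_zero _) (by simp), h.fix hx sz he tz z2]
  have k0 := h.t1 (σ w)
  rw [a2, map_add, map_add, a2] at k0
  obtain ⟨ty, ty2, ty3⟩ : T1 y = y ∧ T2 y = y ∧ T3 y = y := by
    rcases d1 _ hr2 with e | e <;> rw [e] at k0
    · exact zN hy (e := z) (by linear_combination (norm := module) k0 - r4 _ hr2 + hz - z2) (.inr rfl)
    · exact zN hy (e := 0) (by linear_combination (norm := module) k0 - r4 _ hr2 + hz - z2) (.inl rfl)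
  have k1 : T1 (r2 + r2) = r2 + r2 + z := by linear_combination (norm := module) k0 - ty - r4 _ hr2 + hz - z2
  -- fixed vectors of `T1` among the involutions
  have fz : ∀ x ∈ R, x + x = 0 → T1 x = x → ∃ r ∈ R, ∃ e, x = r + r + e ∧ σ e = e ∧ T1 e = e ∧ e + e = 0 ∧
      (e = 0 ∨ e = c) := fun x hx x2 e => by
    obtain ⟨r, hr, e' | e'⟩ := zc x hx x2
    · exact ⟨r, hr, 0, by simp [e'], by simp, by simp, by simp, .inl rfl⟩
    refine ⟨r, hr, c, e', hc, ?_, c2, .inr rfl⟩
    rw [e', map_add] at e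
    rcases d1 r hr with k | k <;> rw [k] at e
    exacts [by linear_combination (norm := module) e, (zN hc (e := z) (by linear_combination (norm := module) e - z2) (.inr rfl)).1]
  have k2 : r2 + r2 = σ (σ a) ∨ r2 + r2 = σ (σ a) + z := by
    obtain ⟨r1, hr1, e, e1, e2, e3, e4, -⟩ := fz (T1 w - w) (sub_mem (hT _ wR) wR) (by linear_combination (norm := module) a1 - w4 + w4)
      (by rw [map_sub, h.t1]; linear_combination (norm := module) a1.symm)
    have c1 : T1 w = w + (r1 + r1 + e) := by linear_combination (norm := module) e1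
    have c3 : T1 (σ (σ w)) = σ (σ w) - (r1 + r1 + e) - y - (r2 + r2) := by
      have := congrArg T1 hw
      simp only [map_add, map_zero, c1, a2] at this
      linear_combination (norm := module) this - hw
    have c4 := h.t12 w
    have c5 : T2 w = w - σ (r1 + r1) - e - y - σ (r2 + r2) := by
      rw [← h.s3 w, h.s1, c3]; simp only [map_sub, map_add, h.s3, e2, hy]; module
    have c6 : T3 w = w + y + σ (σ (r2 + r2)) := by
      rw [← h.s3 w, h.s2, h.s1, a2]; simp only [map_add, h.s3, hy]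
    rw [c5, c6, map_sub, map_sub, map_sub, map_sub, c1, e3, ty] at c4
    have c7 : T1 (r1 + r1) = r1 + r1 := by
      have := congrArg T1 e1
      rw [map_sub, h.t1, map_add, e3] at this
      linear_combination (norm := module) e1 - this - a1
    obtain ⟨p, o, hp, ho, f⟩ := om r1 hr1
    obtain ⟨p', o', hp', ho', f'⟩ := om r2 hr2
    rw [f] at c4 c7
    rw [f'] at c4 k1 ⊢
    have z0 : z ≠ 0 := hz ▸ y0
    have az : a ≠ z := by rw [ha, hz]; exact wy
    have a0 : a ≠ 0 := ha ▸ w0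
    have sp : ∀ {p}, p = 0 ∨ p = z → σ p = p ∧ T1 p = p := by rintro _ (rfl | rfl) <;> simp [sz, tz]
    simp only [map_add, (sp hp).1, (sp hp).2, (sp hp').1, (sp hp').2] at c4 c7 k1
    rcases ho' with rfl | rfl | rfl | rfl
    · exact absurd (by simpa using k1) z0
    · exact absurd (by rw [ta] at k1; linear_combination (norm := module) k1.symm) z0
    · exfalso
      rw [h.s3, tc] at c4
      rcases ho with rfl | rfl | rfl | rfl
      · simp only [map_zero] at c4
        have : σ a = z ∨ σ a = 0 := by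
          rcases hp' with rfl | rfl
          exacts [.inr (by linear_combination (norm := module) c4 + sa - hz + z2), .inr (by linear_combination (norm := module) c4 + sa - hz + (2 : ℤ) • z2)]
        rcases this with e | e
        exacts [az (h.inj (e.trans sz.symm)), a0 (h.inj (e.trans (map_zero _).symm))]
      · rw [tb] at c4
        refine az ?_
        rcases hp' with rfl | rfl
        exacts [by linear_combination (norm := module) c4 + sa - hz + z2, by linear_combination (norm := module) c4 + sa - hz + (2 : ℤ) • z2]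
      · exact z0 (by rw [tb] at c7; linear_combination (norm := module) c7)
      · exact z0 (by rw [tc] at c7; linear_combination (norm := module) c7)
    · rcases hp' with rfl | rfl <;> simp [add_comm]
  -- the square `s`
  obtain ⟨k, hk⟩ : ∃ k, k = -(s + σ s + σ (σ s)) := ⟨_, rfl⟩
  obtain ⟨v, hv⟩ : ∃ v, v = s - k := ⟨_, rfl⟩
  have b3 : σ s + σ s + (σ s + σ s) = 0 := by simpa using congrArg σ b2
  have b4 : σ (σ s) + σ (σ s) + (σ (σ s) + σ (σ s)) = 0 := by simpa using congrArg σ b3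
  have sk : σ k = k := by simp only [hk, map_neg, map_add, h.s3]; module
  have k4 : k + k + (k + k) = 0 := by rw [hk]; linear_combination (norm := module) -b2 - b3 - b4
  have vR : v ∈ R := by
    have := add_mem (add_mem b1 b1) (hσ _ b1)
    rw [map_sub] at this
    convert this using 1
    rw [hv, hk]; linear_combination (norm := module) b2
  have nv : v + σ v + σ (σ v) = 0 := by simp only [hv, map_sub, sk]; linear_combination (norm := module) -k4 + hk
  have e1 : T1 k - k = v - T1 v := by rw [hv, map_sub, h.f1]; module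
  have e2 : T2 v - v = T1 k + k - (T2 k - k) := by
    rw [hv, map_sub, h.f2, show T1 k = -T1 (s + σ s + σ (σ s)) by rw [hk, map_neg]]; linear_combination (norm := module) -hk
  have T2R : ∀ x ∈ R, T2 x ∈ R := fun x hx => by rw [← h.s3 x, h.s1]; exact hσ _ (hT _ (hσ _ (hσ _ hx)))
  have t2 : ∀ x, T2 x = σ (T1 (σ (σ x))) := fun x => by rw [← h.s1, h.s3]
  have t2a : T2 a = a + z := by rw [t2, tc, map_add, h.s3, sz]
  have t2b : T2 (σ a) = σ a := by rw [h.s1, ta]
  have t2c : T2 (σ (σ a)) = σ (σ a) + z := by rw [h.s1, tb, map_add, sz]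
  have t2z : T2 z = z := by rw [t2, sz, sz, tz, sz]
  have z0 : z ≠ 0 := hz ▸ y0
  have sp : ∀ {p}, p = 0 ∨ p = z → σ p = p ∧ T1 p = p ∧ T2 p = p ∧ p + p = 0 := by
    rintro _ (rfl | rfl) <;> simp [sz, tz, t2z, z2]
  have k2' := zN (x := k + k) (e := T1 (k + k) - (k + k)) (by rw [map_add, sk]) (by module) (by
    rcases d1 v vR with e | e <;> simp only [map_add] at e ⊢
    exacts [.inl (by linear_combination (norm := module) (2 : ℤ) • e1 - e), .inr (by linear_combination (norm := module) (2 : ℤ) • e1 - e - z2)])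
  simp only [map_add] at k2'
  have v2 : v + v = 0 := by
    have g1 : T1 (v + v) = v + v := by rw [map_add]; linear_combination (norm := module) (2 : ℤ) • e1 - k2'.1
    have g2 : T2 (v + v) = v + v := by rw [map_add]; linear_combination (norm := module) (2 : ℤ) • e2 + k2'.1 - k2'.2.1 + k4
    obtain ⟨p, o, hp, ho, f⟩ := om v vR
    have g3 := congrArg (fun x => x + x) nv
    simp only [show ∀ x y w : M, x + y + w + (x + y + w) = x + x + (y + y) + (w + w) from fun _ _ _ => by module,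
      ← map_add] at g3
    rw [f] at g1 g2 g3 ⊢
    simp only [map_add, (sp hp).1, (sp hp).2.1, (sp hp).2.2.1] at g1 g2 g3
    rcases ho with rfl | rfl | rfl | rfl
    · simp only [map_zero] at g3; linear_combination (norm := module) g3 - (sp hp).2.2.2
    · exact absurd (by rw [t2a] at g2; linear_combination (norm := module) g2) z0
    · exact absurd (by rw [tb] at g1; linear_combination (norm := module) g1) z0
    · exact absurd (by rw [tc] at g1; linear_combination (norm := module) g1) z0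
  obtain ⟨o, ho, hvo⟩ : ∃ o, (o = 0 ∨ o = a ∨ o = σ a ∨ o = σ (σ a)) ∧ v = o := by
    have no : ∀ o, (o = 0 ∨ o = a ∨ o = σ a ∨ o = σ (σ a)) → o + σ o + σ (σ o) = 0 := by
      rintro _ (rfl | rfl | rfl | rfl)
      exacts [by simp, sa, by rw [h.s3]; linear_combination (norm := module) sa, by rw [h.s3]; linear_combination (norm := module) sa]
    have key : ∀ r ∈ R, v = r + r → ∃ o, (o = 0 ∨ o = a ∨ o = σ a ∨ o = σ (σ a)) ∧ v = o := fun r hr e => by
      obtain ⟨p, o, hp, ho, f⟩ := om r hr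
      refine ⟨o, ho, ?_⟩
      rw [e, f] at nv ⊢
      simp only [map_add, (sp hp).1] at nv
      linear_combination (norm := module) nv - no o ho - (sp hp).2.2.2
    obtain ⟨r, hr, e | e⟩ := zc v vR v2
    · exact key r hr e
    refine key (r + (r + σ r + σ (σ r))) (add_mem hr (add_mem (add_mem hr (hσ _ hr)) (hσ _ (hσ _ hr)))) ?_
    rw [e] at nv ⊢
    simp only [map_add, hc] at nv
    linear_combination (norm := module) nv - c2 - r4 _ (add_mem (add_mem hr (hσ _ hr)) (hσ _ (hσ _ hr)))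
  subst hvo
  obtain ⟨tk, tk2, tk3⟩ := zN (x := k) (e := T1 k - k) sk (by module) (by
    rw [e1]
    rcases ho with e | e | e | e <;> rw [e]
    exacts [.inl (by simp), .inl (by simp [ta]), .inr (by rw [tb]; linear_combination (norm := module) -z2), .inr (by rw [tc]; linear_combination (norm := module) -z2)])
  rw [tk] at e1 e2
  rw [tk2] at e2
  have fin : ∀ w' k', T1 k' = k' → σ k' = k' → k' + k' = 0 → s + T1 w' + w' = k' →
      (T3 (T2 w' + σ w') + (T2 w' + σ w') - σ (σ s) = k' ∨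
        T3 (T2 w' + σ w') + (T2 w' + σ w') - σ (σ s) = k' + z) → Good T1 T2 T3 σ s := fun w' k' g1 g2 g3 g4 g5 => by
    let N : AddSubgroup M :=
      { carrier := {n | n + n = 0 ∧ T1 n = n ∧ σ n = n}
        add_mem' := fun {m n} hm hn => ⟨by linear_combination (norm := module) hm.1 + hn.1, by rw [map_add, hm.2.1, hn.2.1],
          by rw [map_add, hm.2.2, hn.2.2]⟩
        zero_mem' := by simp
        neg_mem' := fun {m} hm => ⟨by linear_combination (norm := module) -hm.1, by rw [map_neg, hm.2.1], by rw [map_neg, hm.2.2]⟩ }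
    have zm : z ∈ N := ⟨z2, tz, sz⟩
    have km : k' ∈ N := ⟨g3, g1, g2⟩
    refine h.good (w := w') (b1 := y) (b2 := a) N (fun n hn => hn.2) hy (g4 ▸ km)
      (by rcases g5 with e | e <;> rw [e]; exacts [km, add_mem km zm]) ?_ (fun e => y0 e.1) aa sa (ha ▸ w0)
    rintro _ (rfl | rfl | rfl)
    · simp [← hz, zm, ty, ty2]
    · simp [aa, ta, t2a, zm]
    · simp [bb, tb, t2b, zm]
  rcases ho with e | e | e | e <;> rw [e] at e1 e2 hv
  · have : s = k := by linear_combination (norm := module) -hv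
    refine fin 0 k tk sk (by simpa using e2.symm) (by simp [this]) (.inl ?_)
    simp only [map_zero, add_zero, this, sk] at e2 ⊢; linear_combination (norm := module) e2
  · have : s = k + a := by linear_combination (norm := module) -hv
    rw [t2a] at e2
    obtain ⟨p, hp, k2⟩ : ∃ p, (p = 0 ∨ p = z) ∧ r2 + r2 = σ (σ a) + p := by
      rcases k2 with e | e; exacts [⟨0, .inl rfl, by simp [e]⟩, ⟨z, .inr rfl, e⟩]
    obtain ⟨r1, hr1, e', g1, g2, g3, g4, -⟩ := fz (T1 w - w) (sub_mem (hT _ wR) wR) (by linear_combination (norm := module) a1)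
      (by rw [map_sub, h.t1]; linear_combination (norm := module) a1.symm)
    have c1 : T1 w = w + (r1 + r1 + e') := by linear_combination (norm := module) g1
    have c2 : T3 w = w + y + (σ a + p) := by
      rw [← h.s3 w, h.s2, h.s1, a2, k2]; simp only [map_add, h.s3, hy, (sp hp).1]
    have c3 : T3 e' = e' := (h.fix g2 (map_zero _) (by simpa using g3) (map_zero _) (by simp)).2.2
    have c4 : T3 (σ (r1 + r1)) = σ (r1 + r1) ∨ T3 (σ (r1 + r1)) = σ (r1 + r1) + z := by
      rw [h.s2, t2]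
      rcases d1 _ (hσ _ (hσ _ hr1)) with f | f <;> rw [← map_add, ← map_add] at f <;> rw [f] <;>
        simp [h.s3, sz]
    have c5 : T2 (σ w) + σ (σ w) = σ (r1 + r1) + e' - w := by rw [h.s1, c1, map_add, map_add, g2]; linear_combination (norm := module) hw
    have c6 := r4 _ (hσ _ hr1)
    rw [← map_add] at c6
    refine fin (σ w) (k + y + p) (by simp [tk, ty, (sp hp).2.1]) (by simp [sk, hy, (sp hp).1])
      (by linear_combination (norm := module) (sp hp).2.2.2 - e2 - hz + z2) (by rw [a2, k2, this]; linear_combination (norm := module) sa - congrArg σ ha + (map_add σ w w).symm) ?_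
    rw [c5, map_sub, map_add T3, c2, c3, this, map_add σ k, map_add σ (σ k), sk, sk]
    rcases c4 with f | f <;> rw [f]
    exacts [.inl (by linear_combination (norm := module) c6 + g4 - sa + ha + e2 + hz - (sp hp).2.2.2 - z2),
      .inr (by linear_combination (norm := module) c6 + g4 - sa + ha + e2 + hz - (sp hp).2.2.2 - z2)]
  · exact absurd (by rw [tb] at e1; linear_combination (norm := module) e1) z0
  · exact absurd (by rw [tc] at e1; linear_combination (norm := module) e1) z0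

theorem m2 (R : AddSubgroup M) (hT : ∀ x ∈ R, T1 x ∈ R) (hσ : ∀ x ∈ R, σ x ∈ R) {y w c : M} (yR : y ∈ R) (wR : w ∈ R)
    (cR : c ∈ R) (hw : w + σ w + σ (σ w) = 0) (hy : σ y = y) (hc : σ c = c) (c2 : c + c = 0)
    (cov : ∀ x ∈ R, ∃ p o, (p = 0 ∨ p = y) ∧ (o = 0 ∨ o = w ∨ o = σ w ∨ o = σ (σ w)) ∧ x + x = p + p + (o + o))
    (y4 : y + y + (y + y) = 0) (w4 : w + w + (w + w) = 0)
    (zc : ∀ x ∈ R, x + x = 0 → ∃ r ∈ R, x = r + r ∨ x = r + r + c) (y0 : y + y ≠ 0) (w0 : w + w ≠ 0)
    (wy : w + w ≠ y + y) (a1 : T1 w + T1 w = w + w) (a3 : T1 y + T1 y = y + y)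
    (a2 : T1 (σ w) + T1 (σ w) = σ w + σ w + (y + y))
    (b1 : σ s - s ∈ R) (b2 : s + s + (s + s) = 0) : Good T1 T2 T3 σ s := by
  obtain ⟨r, hr, e | e⟩ := zc (T1 (σ w) - σ w - y) (sub_mem (sub_mem (hT _ (hσ _ wR)) (hσ _ wR)) yR) (by linear_combination (norm := module) a2)
  · exact h.m2' R hT hσ yR wR hw hy hc c2 cov y4 w4 zc y0 w0 wy a1 a3 ⟨r, hr, by linear_combination (norm := module) e⟩ b1 b2
  have k : y + c + (y + c) = y + y := by linear_combination (norm := module) c2
  have k' : T1 c + T1 c = 0 := by rw [← map_add, c2, map_zero]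
  refine h.m2' R hT hσ (add_mem yR cR) wR hw (by rw [map_add, hy, hc]) hc c2 (fun x hx => ?_) (by rw [k, y4]) w4 zc
    (by rwa [k]) w0 (by rwa [k]) a1 (by rw [map_add]; linear_combination (norm := module) a3 + k' - c2) ⟨r, hr, by linear_combination (norm := module) e⟩ b1 b2
  obtain ⟨p, o, hp | hp, ho, f⟩ := cov x hx
  exacts [⟨p, o, .inl hp, ho, f⟩, ⟨_, o, .inr rfl, ho, by rw [k, f, hp]⟩]

omit h in
theorem odd_kill {x : M} {m : ℕ} {n : ℤ} (hn : Odd n) (h1 : (2 : ℤ) ^ m • x = 0) (h2 : n • x = 0) : x = 0 := by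
  obtain ⟨k, rfl⟩ := hn
  obtain ⟨u, v, e⟩ : IsCoprime ((2 : ℤ) ^ m) (2 * k + 1) := IsCoprime.pow_left ⟨-k, 1, by ring⟩
  rw [← one_smul ℤ x, ← e, add_smul, mul_smul, mul_smul, h1, h2]; simp

theorem m1 (R : AddSubgroup M) (r2 : ∀ x ∈ R, x + x = 0) (hσ : ∀ x ∈ R, σ x ∈ R) {z w c d r : M} {j : ℤ} {m : ℕ}
    (zR : z ∈ R) (wR : w ∈ R) (cR : c ∈ R) (hw : w + σ w + σ (σ w) = 0) (hz : σ z = z) (hc : σ c = c) (hd : σ d = d)
    (cov : ∀ x ∈ R, ∃ p o, (p = 0 ∨ p = z ∨ p = c ∨ p = z + c) ∧ (o = 0 ∨ o = w ∨ o = σ w ∨ o = σ (σ w)) ∧ x = p + o)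
    (z0 : z ≠ 0) (zc : z ≠ c) (w0 : w ≠ 0) (tc : T1 c = c) (a1 : T1 w = w + c)
    (a2 : T1 (σ w) = σ w + z ∨ T1 (σ w) = σ w + (z + c)) (a3 : T1 z = z ∨ T1 z = z + c) (dR : T1 d - d ∈ R)
    (dm : (2 : ℤ) ^ m • d = 0) (d4 : (4 : ℤ) • d ≠ 0) (dc : ∀ i : ℤ, (2 * i) • d ∈ R → (2 * i) • d = 0 ∨ (2 * i) • d = c)
    (rR : r ∈ R) (hs : s = j • d + r) : Good T1 T2 T3 σ s := by
  have c2 := r2 c cR
  have z2 := r2 z zR
  have tz : T1 z = z := by
    rcases a3 with e | e
    exacts [e, (h.fix hz hc e tc c2).1]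
  obtain ⟨z', hz', a2⟩ : ∃ z', (z' = z ∨ z' = z + c) ∧ T1 (σ w) = σ w + z' := by
    rcases a2 with e | e; exacts [⟨_, .inl rfl, e⟩, ⟨_, .inr rfl, e⟩]
  have sp : ∀ {p}, (p = 0 ∨ p = z ∨ p = c ∨ p = z + c) → σ p = p ∧ T1 p = p := by
    rintro _ (rfl | rfl | rfl | rfl) <;> simp [*]
  have g1 : z' ≠ 0 ∧ z' ≠ c ∧ σ z' = z' ∧ z' ∈ R := by
    rcases hz' with rfl | rfl
    exacts [⟨z0, zc, hz, zR⟩, ⟨fun e => zc (by linear_combination (norm := module) e - c2), by simpa, by simp [*], add_mem zR cR⟩]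
  have a4 : T1 (σ (σ w)) = σ (σ w) + (z' + c) := by
    have := congrArg T1 hw
    simp only [map_add, map_zero, a1, a2] at this
    linear_combination (norm := module) this - hw - c2 - r2 _ g1.2.2.2
  have g2 : z' + c ≠ 0 := fun e => g1.2.1 (by linear_combination (norm := module) e - c2)
  have fx : ∀ x ∈ R, T1 x = x → (σ x = x ∧ T2 x = x) ∨ (c = 0 ∧ σ x ≠ x ∧ T2 x = x + z') := fun x hx e => by
    obtain ⟨p, o, hp, ho, rfl⟩ := cov x hx
    have t2 : T2 p = p := by rw [← (sp hp).1, h.s1, (sp hp).2]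
    rw [map_add, (sp hp).2] at e
    rcases ho with rfl | rfl | rfl | rfl
    · simp [(sp hp).1, t2]
    · have c0 : c = 0 := by rw [a1] at e; linear_combination (norm := module) e
      refine .inr ⟨c0, fun f => w0 ?_, ?_⟩
      · rw [map_add, (sp hp).1, add_right_inj] at f
        rw [f, f] at hw; linear_combination (norm := module) hw - r2 _ wR
      · rw [map_add, t2, ← h.s3 o, h.s1, a4, c0, map_add, add_zero, g1.2.2.1, add_assoc]
    · exact absurd (by rw [a2] at e; linear_combination (norm := module) e) g1.1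
    · exact absurd (by rw [a4] at e; linear_combination (norm := module) e) g2
  have dv : ∀ x ∈ R, T1 x - x ∈ R ∧ σ (T1 x - x) = T1 x - x := fun x hx => by
    obtain ⟨p, o, hp, ho, rfl⟩ := cov x hx
    rw [map_add, (sp hp).2]
    rcases ho with rfl | rfl | rfl | rfl <;> simp [a1, a2, a4, hc, g1, cR, add_mem]
  have tg : T1 (j • d) = j • d := by
    have k : T1 (T1 d - d) = T1 d - d := by rw [map_sub, h.t1]; linear_combination (norm := module) -r2 _ dR
    rcases fx _ dR k with e | e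
    · rw [map_zsmul, (h.fix hd e.1 (by module) k (r2 _ dR)).1]
    obtain ⟨i, rfl | rfl⟩ := Int.even_or_odd' j
    · rw [map_zsmul]; linear_combination (norm := module) i • r2 _ dR
    refine (e.2.1 ?_).elim
    have f := h.f1
    rw [hs, map_add, map_zsmul] at f
    rw [show T1 d - d = T1 r - r by linear_combination (norm := module) f - i • r2 _ dR - r2 _ (dv r rR).1, (dv r rR).2]
  have sg : σ (j • d) = j • d := by rw [map_zsmul, hd]
  have tr : T1 r = r := by have := h.f1; rw [hs, map_add, tg] at this; linear_combination (norm := module) this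
  have nr : T1 (r + σ r + σ (σ r)) = r + σ r + σ (σ r) := by
    obtain ⟨p, o, hp, ho, rfl⟩ := cov r rR
    have : o + σ o + σ (σ o) = 0 := by
      rcases ho with rfl | rfl | rfl | rfl
      exacts [by simp, hw, by rw [h.s3]; linear_combination (norm := module) hw, by rw [h.s3]; linear_combination (norm := module) hw]
    rw [show p + o + σ (p + o) + σ (σ (p + o)) = p + p + p by simp only [map_add, (sp hp).1]; linear_combination (norm := module) this]
    simp [(sp hp).2]
  have f2 := h.f2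
  rw [show s + σ s + σ (σ s) = j • d + j • d + j • d + (r + σ r + σ (σ r)) by simp only [hs, map_add, sg]; module,
    map_add T1, nr, hs, map_add, ← sg, h.s1, tg, sg, map_add, map_add, tg] at f2
  have f3 : T2 r - r = (2 * (-3 * j)) • d := by linear_combination (norm := module) f2 - r2 _ (add_mem (add_mem rR (hσ _ rR)) (hσ _ (hσ _ rR)))
  obtain ⟨sr, t2⟩ : σ r = r ∧ T2 r = r := (fx r rR tr).resolve_right fun e => by
    rw [e.2.2, add_sub_cancel_left] at f3
    rcases dc _ (f3 ▸ g1.2.2.2) with f | f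
    exacts [g1.1 (f3.trans f), g1.2.1 (f3.trans f)]
  have g2 : (2 * j) • d = 0 := odd_kill (m := m) (n := -3) (by decide) (by rw [smul_comm, dm, smul_zero])
    (by rw [t2] at f3; linear_combination (norm := module) -f3)
  obtain ⟨l, rfl⟩ : (4 : ℤ) ∣ j := by
    obtain ⟨i, rfl | rfl⟩ := Int.even_or_odd' j
    · obtain ⟨l, rfl | rfl⟩ := Int.even_or_odd' i
      · exact ⟨l, by ring⟩
      · exact (d4 (odd_kill (m := m) ⟨l, rfl⟩ (by rw [smul_comm, dm, smul_zero]) (by linear_combination (norm := module) g2))).elim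
    · exact (d4 (odd_kill (m := m) ⟨i, rfl⟩ (by rw [smul_comm, dm, smul_zero]) (by linear_combination (norm := module) (2 : ℤ) • g2))).elim
  have td : T1 (d + d) = d + d := by rw [map_add]; linear_combination (norm := module) r2 _ dR
  let N : AddSubgroup M :=
    { carrier := {n | ∃ i : ℤ, ∃ x ∈ R, (σ x = x ∧ T1 x = x) ∧ n = (4 * i) • d + x}
      add_mem' := by
        rintro _ _ ⟨i, x, hx, e, rfl⟩ ⟨i', x', hx', e', rfl⟩
        exact ⟨i + i', x + x', add_mem hx hx', by simp [e, e'], by module⟩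
      zero_mem' := ⟨0, 0, zero_mem _, by simp, by simp⟩
      neg_mem' := by
        rintro _ ⟨i, x, hx, e, rfl⟩
        exact ⟨-i, -x, neg_mem hx, by simp [e], by module⟩ }
  have nR : ∀ x ∈ R, σ x = x → T1 x = x → x ∈ N := fun x hx e e' => ⟨0, x, hx, ⟨e, e'⟩, by simp⟩
  have sN : s ∈ N := ⟨l, r, rR, ⟨sr, tr⟩, hs⟩
  have tz' : T1 z' = z' := by rcases hz' with rfl | rfl <;> simp [*]
  have hN : ∀ n ∈ N, T1 n = n ∧ σ n = n := by
    rintro _ ⟨i, x, hx, e, rfl⟩
    rw [show (4 * i) • d = (2 * i) • (d + d) by module]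
    simp only [map_add T1 _ x, map_add σ, map_zsmul, td, e, hd, and_self]
  refine h.good (w := 0) (b1 := d + d) (b2 := w) N hN (by rw [map_add, hd]) (by simpa) (by
    simpa [(hN s sN).2] using sN) ?_ ?_ (r2 _ wR) hw w0
  · rintro b (e | e | e) <;> rw [e]
    · have : T2 (d + d) = d + d := by rw [← hd, ← map_add, h.s1, td]
      exact ⟨⟨1, 0, zero_mem _, by simp, by module⟩, by simp only [td, sub_self, zero_mem],
        by simp only [this, sub_self, zero_mem]⟩
    · have : T2 w = w + (z' + c) := by rw [← h.s3 w, h.s1, a4, map_add, map_add, g1.2.2.1, hc]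
      simp only [r2 _ wR, zero_mem, a1, this, add_sub_cancel_left, true_and]
      exact ⟨nR c cR hc tc, add_mem (nR _ g1.2.2.2 g1.2.2.1 tz') (nR c cR hc tc)⟩
    · simp only [r2 _ (hσ _ wR), zero_mem, a2, h.s1, a1, map_add, hc, add_sub_cancel_left, true_and]
      exact ⟨nR _ g1.2.2.2 g1.2.2.1 tz', nR c cR hc tc⟩
  · rintro ⟨i, x, hx, -, e⟩
    exact d4 (odd_kill (m := m) (n := 2 * -i + 1) ⟨_, rfl⟩ (by rw [smul_comm, dm, smul_zero])
      (by linear_combination (norm := module) (2 : ℤ) • e + r2 x hx))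

end Md

end Cfsg.Lib.L32
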