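import Cfsg.Agent.Lib.L32.Lem1
import Cfsg.Agent.Lib.L32.Sec

/-!
# Two noncentral chief factors give rank five
-/

set_option autoImplicit false

namespace Cfsg.Lib.L32
open Subgroup
open scoped IsMulCommutative

variable {X : Type*} [Group X] [Finite X] {Q : Subgroup X}

omit [Finite X] in
theorem E8.canc {A B : Subgroup X} (h : E8 Q A B) {a b : X} (ha : a ∈ A) : a * (a * b) ∈ B ↔ b ∈ B := by
  rw [← mul_assoc, mul_mem_cancel_left (h.sq a ha)]

omit [Finite X] in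
theorem E8.swap {A B : Subgroup X} (h : E8 Q A B) {a b c : X} (ha : a ∈ A) (hb : b ∈ A) :
    a * (b * c) ∈ B ↔ b * (a * c) ∈ B := by
  have := mul_mem (mul_mem (h.sq _ (mul_mem ha hb)) (h.nB.conj_mem' _ (inv_mem (h.sq a ha)) b)) (inv_mem (h.sq b hb))
  rw [← mul_mem_cancel_left (y := b * (a * c)) this]
  exact iff_of_eq (by congr 1; group)

theorem E8.tr2 {A B : Subgroup X} (h : E8 Q A B) (hy : Hy Q) {a b a' b' : X} (ha : a ∈ A) (hb : b ∈ A) (a0 : a ∉ B)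
    (b0 : b ∉ B) (ab : a * b ∉ B) (ha' : a' ∈ A) (hb' : b' ∈ A) (a0' : a' ∉ B) (b0' : b' ∉ B) (ab' : a' * b' ∉ B) :
    ∃ g ∈ O2 X, g * a * g⁻¹ * a'⁻¹ ∈ B ∧ g * b * g⁻¹ * b'⁻¹ ∈ B := by
  obtain ⟨c, hc, c0⟩ := h.ext ha hb
  obtain ⟨c', hc', c0'⟩ := h.ext ha' hb'
  obtain ⟨g, hg, k1, k2, -⟩ := h.tr3Y hy ha hb hc ⟨a0, b0, ab, c0⟩ ha' hb' hc' ⟨a0', b0', ab', c0'⟩
  exact ⟨g, hg, k1, k2⟩

theorem E8.tr1 {A B : Subgroup X} (h : E8 Q A B) (hy : Hy Q) {a a' : X} (ha : a ∈ A) (a0 : a ∉ B) (ha' : a' ∈ A)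
    (a0' : a' ∉ B) : ∃ g ∈ O2 X, g * a * g⁻¹ * a'⁻¹ ∈ B := by
  obtain ⟨c, hc, c0, c1, -⟩ := h.ext ha ha
  obtain ⟨c', hc', c0', c1', -⟩ := h.ext ha' ha'
  obtain ⟨g, hg, k1, -⟩ := h.tr2 hy ha hc a0 c0 c1 ha' hc' a0' c0' c1'
  exact ⟨g, hg, k1⟩

theorem E8.rigid {V : Subgroup X} (h : E8 Q V ⊥) (hy : Hy Q) {a t : X} (ha : a ∈ V) (ht : t ∈ V) (a0 : a ≠ 1)
    (k : ∀ g ∈ O2 X, g * a * g⁻¹ = a → g * t * g⁻¹ = t ∨ g * t * g⁻¹ = a * t) : t = 1 ∨ t = a := by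
  by_contra! hn
  have v2 : ∀ v ∈ V, v⁻¹ = v := fun v hv => inv_eq_of_mul_eq_one_right (h.sq v hv)
  have at' : a * t ∉ (⊥ : Subgroup X) := fun e => hn.2 (by rw [← v2 a ha]; exact eq_inv_of_mul_eq_one_right e)
  obtain ⟨w, hw, w0, w1, w2, w3⟩ := h.ext ha ht
  obtain ⟨g, hg, k1, k2⟩ := h.tr2 hy ha ht a0 hn.1 at' ha hw a0 w0 w1
  rw [mem_bot, mul_inv_eq_one] at k1 k2
  rcases k g hg k1 with e | e <;> rw [k2] at e
  · exact w2 (by rw [e]; exact h.sq _ ht)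
  · exact w3 (by rw [← mul_assoc, ← e]; exact h.sq _ hw)

/-- two noncentral chief factors `V` and `R / Z` -/
structure Two (Q V R Z : Subgroup X) (c : X) : Prop where
  hy : Hy Q
  hC : ∀ x ∈ Q, (∀ y ∈ O2 X, y * x * y⁻¹ = x) → x = 1
  eV : E8 Q V ⊥
  eR : E8 Q R Z
  VZ : V ≤ Z
  RQ : R ≤ Q
  sq : ∀ r ∈ R, r * r ∈ V
  trQ : Tr (O2 X) Q R
  trZ : Tr (O2 X) Z V
  cZ : ∀ z, z ∈ Z ↔ z ∈ V ∨ z * c⁻¹ ∈ V
  ab : ∀ x ∈ Q, ∀ y ∈ Q, x * y * x⁻¹ * y⁻¹ ∈ V
  uni : c ∉ V → ∀ x ∈ R, x ∉ Z → ∃ g ∈ O2 X, g * x * g⁻¹ * (x * c)⁻¹ ∈ V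

namespace Two
variable {V R Z : Subgroup X} {c : X} (h : Two Q V R Z c)
include h

omit [Finite X] in
theorem cen {q v : X} (hq : q ∈ Q) (hv : v ∈ V) : Commute q v :=
  mul_inv_eq_iff_eq_mul.1 (mul_inv_eq_one.1 ((h.eV.ker q).2 hq v hv))

omit [Finite X] in
theorem sqV {v x : X} (hv : v ∈ V) (hx : x ∈ Q) : v * x * (v * x) = x * x := by
  rw [(h.cen hx hv).mul_mul_mul_comm, show v * v = 1 from h.eV.sq v hv, one_mul]

omit [Finite X] in
theorem z2 {z : X} (hz : z ∈ Z) : z * z = 1 :=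
  h.hC _ (mul_mem (h.RQ (h.eR.le hz)) (h.RQ (h.eR.le hz))) fun y hy => by
    rw [← conj_mul, ← h.sqV (h.trZ y hy z hz) (h.RQ (h.eR.le hz))]; group

theorem zR {z x : X} (hz : z ∈ Z) (hx : x ∈ R) : Commute z x := by
  have ZQ : Z ≤ Q := h.eR.le.trans h.RQ
  have cZ : c ∈ Z := (h.cZ c).2 (.inr (by simp))
  have zz : ∀ {z w}, z ∈ Z → w ∈ Z → Commute z w := fun hz hw => comm_of_sq (h.z2 hz) (h.z2 hw) (h.z2 (mul_mem hz hw))
  suffices k : Commute c x by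
    rcases (h.cZ z).1 hz with e | e
    · exact (h.cen (h.RQ hx) e).symm
    · simpa using (h.cen (h.RQ hx) e).symm.mul_left k
  by_cases cV : c ∈ V
  · exact (h.cen (h.RQ hx) cV).symm
  by_cases xZ : x ∈ Z
  · exact zz cZ xZ
  obtain ⟨φ, hφ⟩ : ∃ φ : X → X, ∀ x, φ x = c * x * c⁻¹ * x⁻¹ := ⟨_, fun _ => rfl⟩
  have fV : ∀ {x}, x ∈ R → φ x ∈ V := fun hx => hφ _ ▸ h.ab _ (ZQ cZ) _ (h.RQ hx)
  have fm : ∀ {x y}, x ∈ R → y ∈ R → φ (x * y) = φ x * φ y := fun {x y} hx hy => by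
    have := (h.cen (h.RQ hx) (fV hy)).eq
    rw [← mul_inv_eq_iff_eq_mul] at this
    rw [← this]; simp only [hφ]; group
  have fz : ∀ {z}, z ∈ Z → φ z = 1 := fun hz => by rw [hφ, (zz cZ hz).eq]; group
  have fe : ∀ {g x}, g ∈ O2 X → x ∈ R → φ (g * x * g⁻¹) = g * φ x * g⁻¹ := fun {g x} hg hx => by
    have e1 := (h.cen (ZQ cZ) (h.trZ g hg c cZ)).eq
    have e2 := (h.cen (h.RQ (h.eR.nA.conj_mem x hx g)) (h.trZ g hg c cZ)).eq
    obtain ⟨v, hv⟩ : ∃ v, v = g * c * g⁻¹ * c⁻¹ := ⟨_, rfl⟩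
    rw [← hv] at e1 e2
    calc _ = c * (v * (g * x * g⁻¹)) * (c * v)⁻¹ * (g * x * g⁻¹)⁻¹ := by rw [hφ, ← e2]; group
      _ = _ := by rw [← mul_assoc, e1, hv, hφ]; group
  have fs : ∀ {g x y}, g ∈ O2 X → x ∈ R → y ∈ R → g * x * g⁻¹ * y⁻¹ ∈ Z → g * φ x * g⁻¹ = φ y := fun {g x y} hg hx hy e => by
    rw [← fe hg hx, ← inv_mul_cancel_right (g * x * g⁻¹) y, fm (h.eR.le e) hy, fz e, one_mul]
  by_contra hn
  have f0 : φ x ≠ 1 := fun e => hn (mul_inv_eq_iff_eq_mul.1 (mul_inv_eq_one.1 (hφ x ▸ e)))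
  have fi : ∀ {w}, w ∈ R → φ w = 1 → w ∈ Z := fun {w} hw e => by
    by_contra wZ
    obtain ⟨g, hg, k⟩ := h.eR.tr1 h.hy hw wZ hx xZ
    exact f0 (by rw [← fs hg hw hx k, e]; group)
  have sc : ∀ {v}, v ∈ V → v * (x * c) * (v * (x * c)) = φ x * (x * x) := fun {v} hv => by
    rw [h.sqV hv (mul_mem (h.RQ hx) (ZQ cZ)), ← mul_assoc (φ x), ← (h.cen (h.RQ hx) (fV hx)).eq, hφ,
      inv_eq_of_mul_eq_one_right (h.z2 cZ)]; group
  have := h.eV.rigid h.hy (fV hx) (h.sq x hx) f0 fun g hg e => by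
    have gx := h.eR.nA.conj_mem x hx g
    have k : g * x * g⁻¹ * x⁻¹ ∈ Z := fi (mul_mem gx (inv_mem hx)) (by
      rw [fm gx (inv_mem hx), fe hg hx, e, ← fm hx (inv_mem hx), fz (by simp)])
    rw [← conj_mul]
    rcases (h.cZ _).1 k with k' | k'
    · exact .inl (by rw [← h.sqV k' (h.RQ hx)]; group)
    · have k2 : g * x * g⁻¹ * x⁻¹ * c⁻¹ * φ x ∈ V := mul_mem k' (fV hx)
      exact .inr (by rw [← sc k2, hφ]; group)
  obtain ⟨g, hg, k⟩ := h.uni cV x hx xZ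
  have e1 : g * (x * x) * g⁻¹ = φ x * (x * x) := by rw [← sc k]; group
  have e2 : g * φ x * g⁻¹ = φ x := fs hg hx hx (by
    have := mul_mem (h.VZ k) (h.eR.nB.conj_mem c cZ x)
    convert this using 1; group)
  rcases this with e | e <;> rw [e] at e1
  · exact f0 (by simpa using e1.symm)
  · exact f0 (by simpa [e2] using e1)

theorem sqZ {z x : X} (hz : z ∈ Z) (hx : x ∈ R) : z * x * (z * x) = x * x := by
  rw [(h.zR hz hx).symm.mul_mul_mul_comm, h.z2 hz, one_mul]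

theorem sqc {g x y : X} (hy : y ∈ R) (e : g * x * g⁻¹ * y⁻¹ ∈ Z) : g * (x * x) * g⁻¹ = y * y := by
  rw [← h.sqZ e hy]; group

theorem q1 {x : X} (hx : x ∈ R) (e : x * x = 1) : x ∈ Z := by
  by_contra xZ
  have k : ∀ y ∈ R, y * y ∈ (⊥ : Subgroup X) := fun y hy => by
    by_cases yZ : y ∈ Z
    · exact h.z2 yZ
    obtain ⟨g, -, k⟩ := h.eR.tr1 h.hy hx xZ hy yZ
    rw [← h.sqc hy k, e]; simp
  have := h.hy.r4 R ⊥ bot_le (by rw [normalizer_eq_top]; exact le_top) k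
  rw [← relIndex_mul_relIndex ⊥ Z R bot_le h.eR.le, ← relIndex_mul_relIndex ⊥ V Z bot_le h.VZ, h.eV.idx, h.eR.idx] at this
  have : V.relIndex Z ≠ 0 := index_ne_zero_of_finite
  omega

theorem q2 {x y : X} (hx : x ∈ R) (hy : y ∈ R) (x0 : x ∉ Z) (y0 : y ∉ Z) (xy : x * y ∉ Z) : x * x * (y * y) ≠ 1 := fun e => by
  have e' : y * y = x * x := by
    rw [← inv_eq_of_mul_eq_one_right e]; exact inv_eq_of_mul_eq_one_right (h.eV.sq _ (h.sq x hx))
  refine x0 (h.q1 hx (h.hC _ (h.RQ (mul_mem hx hx)) fun g hg => ?_))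
  have gx := h.eR.nA.conj_mem x hx g
  by_cases k : x * (g * x * g⁻¹) ∈ Z
  · refine h.sqc hx ?_
    have := mul_mem (h.eR.nB.conj_mem' _ k x) (inv_mem (h.eR.sq x hx))
    convert this using 1; group
  obtain ⟨t, -, k1, k2⟩ := h.eR.tr2 h.hy hx hy x0 y0 xy hx gx x0 (fun e => x0 (by
    simpa [mul_assoc] using h.eR.nB.conj_mem' _ e g)) k
  rw [← conj_mul, ← h.sqc gx k2, e', h.sqc hx k1]

theorem comm {x y : X} (hx : x ∈ R) (hy : y ∈ R) : Commute x y := by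
  by_cases x0 : x ∈ Z
  · exact h.zR x0 hy
  by_cases y0 : y ∈ Z
  · exact (h.zR y0 hx).symm
  by_cases xy : x * y ∈ Z
  · simpa using (Commute.refl x).inv_right.mul_right (h.zR xy hx).symm
  have := h.eR.nB
  by_contra hn
  have p := mul_mem hx hy
  obtain ⟨w, hw, w0, w1, w2, w3⟩ := h.eR.ext hx hy
  obtain ⟨g, k1, k2, k3⟩ := h.eR.tr3 hx hy hw ⟨x0, y0, xy, w0, w1, w2, w3⟩ hx hy (mul_mem hx hw) ⟨x0, y0, xy, w1,
    by rwa [h.eR.canc hx], by rwa [h.eR.swap hy hx], by rwa [← mul_assoc, h.eR.swap p hx, mul_assoc, h.eR.canc hx]⟩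
  have k4 : g * (x * y) * g⁻¹ * (x * y)⁻¹ ∈ Z := by
    have := mul_mem (h.eR.nB.conj_mem _ k2 (g * x * g⁻¹)) k1
    convert this using 1; group
  have gQ := h.eV.of_fix (g := g) (h.sq x hx) (h.sq y hy) (h.sq _ p) ⟨mt (h.q1 hx) x0, mt (h.q1 hy) y0, h.q2 hx hy x0 y0 xy,
    mt (h.q1 p) xy, h.q2 hx p x0 xy (by rwa [h.eR.canc hx]),
    h.q2 hy p y0 xy (by rwa [h.eR.swap hy hx, h.eR.sq y hy |> mul_mem_cancel_right]), fun e => hn (by
      have e' : x * x * (y * y) = x * y * (x * y) := by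
        rw [mem_bot, ← mul_assoc] at e
        rw [eq_inv_of_mul_eq_one_left e]; exact inv_eq_of_mul_eq_one_right (h.eV.sq _ (h.sq _ p))
      exact mul_left_cancel (a := x) (mul_right_cancel (b := y) (by simpa only [mul_assoc] using e')))⟩
    (by simp [h.sqc hx k1]) (by simp [h.sqc hy k2]) (by rw [h.sqc p k4, mul_inv_cancel]; exact one_mem _)
  have := mul_mem (inv_mem k3) ((h.eR.ker g).2 gQ w hw)
  exact x0 (by convert this using 1; group)

theorem sqm {x y : X} (hx : x ∈ R) (hy : y ∈ R) : x * y * (x * y) = x * x * (y * y) := (h.comm hy hx).mul_mul_mul_comm x y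

theorem surj {v : X} (hv : v ∈ V) : ∃ r ∈ R, r * r = v := by
  by_cases v0 : v = 1
  · exact ⟨1, one_mem _, by simp [v0]⟩
  obtain ⟨x, hx, x0, -⟩ := h.eR.ext (one_mem R) (one_mem R)
  obtain ⟨g, -, k⟩ := h.eV.tr1 h.hy (h.sq x hx) (mt (h.q1 hx) x0) hv v0
  exact ⟨_, h.eR.nA.conj_mem x hx g, by rw [conj_mul]; exact mul_inv_eq_one.1 k⟩

/-- an element of `Q` centralizes or inverts `R` -/
theorem inv_or {s : X} (hs : s ∈ Q) : (∀ r ∈ R, Commute s r) ∨ ∀ r ∈ R, s * r * s⁻¹ = r⁻¹ := by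
  obtain ⟨ψ, hψ⟩ : ∃ ψ : X → X, ∀ r, ψ r = s * r * s⁻¹ * r⁻¹ := ⟨_, fun _ => rfl⟩
  have nR := h.eR.nA.conj_mem
  have fV : ∀ {x}, x ∈ R → ψ x ∈ V := fun hx => hψ _ ▸ h.ab _ hs _ (h.RQ hx)
  have fm : ∀ {x y}, x ∈ R → y ∈ R → ψ (x * y) = ψ x * ψ y := fun {x y} hx hy => by
    have := (h.cen (h.RQ hx) (fV hy)).eq
    rw [← mul_inv_eq_iff_eq_mul] at this
    rw [← this]; simp only [hψ]; group
  have fe : ∀ {g x}, g ∈ O2 X → x ∈ R → ψ (g * x * g⁻¹) = g * ψ x * g⁻¹ := fun {g x} hg hx => by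
    have e1 := (h.comm (h.trQ g hg s hs) (nR _ (nR x hx g) s)).eq
    rw [← mul_inv_eq_iff_eq_mul] at e1
    rw [hψ, ← e1, hψ]; group
  have f1 : ∀ {x}, ψ x = 1 ↔ Commute s x := fun {x} => by rw [hψ, mul_inv_eq_one, mul_inv_eq_iff_eq_mul]; rfl
  have fz : ∀ {z}, z ∈ Z → ψ z = 1 := fun {z} hz => h.hC _ (h.RQ (h.eR.le (h.VZ (fV (h.eR.le hz))))) fun g hg => by
    rw [← fe hg (h.eR.le hz), ← inv_mul_cancel_right (g * z * g⁻¹) z, fm (h.eR.le (h.VZ (h.trZ g hg z hz))) (h.eR.le hz),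
      f1.2 (h.cen hs (h.trZ g hg z hz)), one_mul]
  have fs : ∀ {g x y}, g ∈ O2 X → x ∈ R → y ∈ R → g * x * g⁻¹ * y⁻¹ ∈ Z → g * ψ x * g⁻¹ = ψ y := fun {g x y} hg hx hy e => by
    rw [← fe hg hx, ← inv_mul_cancel_right (g * x * g⁻¹) y, fm (h.eR.le e) hy, fz e, one_mul]
  by_cases e : ∃ x ∈ R, x ∉ Z ∧ ψ x = 1
  · obtain ⟨x, hx, x0, e⟩ := e
    refine .inl fun r hr => f1.1 ?_
    by_cases r0 : r ∈ Z
    · exact fz r0
    obtain ⟨g, hg, k⟩ := h.eR.tr1 h.hy hx x0 hr r0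
    rw [← fs hg hx hr k, e]; group
  refine .inr fun r hr => ?_
  by_cases r0 : r ∈ Z
  · rw [(f1.1 (fz r0)).eq, mul_inv_cancel_right, inv_eq_of_mul_eq_one_right (h.z2 r0)]
  have := (h.eV.rigid h.hy (h.sq r hr) (fV hr) (mt (h.q1 hr) r0) fun g hg k => .inl (fs hg hr hr (h.q1
    (mul_mem (nR r hr g) (inv_mem hr)) (by rw [h.sqm (nR r hr g) (inv_mem hr), conj_mul, k]; group)))).resolve_left
      fun k => e ⟨r, hr, r0, k⟩
  rw [hψ, mul_inv_eq_iff_eq_mul] at this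
  rw [this]; exact eq_inv_of_mul_eq_one_left (by simpa only [mul_assoc, mem_bot] using h.eV.sq _ (h.sq r hr))

omit [Finite X] in
theorem fixpow {s : X} (hs : s ∈ Q) {y : X} (hy : y ∈ O2 X) : ∃ r ∈ R, y * s * y⁻¹ = r * s :=
  ⟨_, h.trQ y hy s hs, by group⟩

theorem false : False := by
  have nR := h.eR.nA
  have nQ := h.hy.nQ
  obtain ⟨z, hz, z0, -⟩ := h.eR.ext (one_mem R) (one_mem R)
  obtain ⟨a, ha, a0, za, -⟩ := h.eR.ext hz hz
  obtain ⟨b, hb, hi⟩ := h.eR.ext hz ha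
  have i : Ind Z z a b := ⟨z0, a0, za, hi⟩
  obtain ⟨g, gY, u, uY, g3, uQ, uu, h3, gz, ga, gb, uz, ua, ub⟩ := h.eR.gu h.hy hz ha hb i
  have r4 : ∀ r ∈ R, r * r * (r * r) = 1 := fun r hr => h.eV.sq _ (h.sq r hr)
  -- `u²` centralizes `R`
  have sR : ∀ r ∈ R, Commute (u * u) r := by
    refine (h.inv_or uu).resolve_right fun k => ?_
    obtain ⟨s, hs⟩ : ∃ s, s = u * u := ⟨_, rfl⟩
    rw [← hs] at k uu
    by_cases cV : c ∈ V
    · have ZV : ∀ {x}, x ∈ Z → x ∈ V := fun hx => ((h.cZ _).1 hx).elim id fun e => by simpa using mul_mem e cV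
      obtain ⟨r, hr, e⟩ := h.surj (ZV ua)
      have ur := nR.conj_mem r hr u
      have k1 : a * (u * r * u⁻¹ * r) ∈ Z := h.q1 (mul_mem ha (mul_mem ur hr)) (by
        rw [h.sqm ha (mul_mem ur hr), h.sqm ur hr, conj_mul, e]
        calc _ = a * a * (u * u * a * (u * u)⁻¹) * a⁻¹ := by group
          _ = _ := by rw [← hs, k a ha]; group)
      have nZ := h.eR.nB
      let F : Subgroup X :=
        { carrier := {x | u * x * u⁻¹ * x⁻¹ ∈ Z}
          one_mem' := by simp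
          mul_mem' := fun {x y} hx hy => by
            have := mul_mem hx (nZ.conj_mem _ hy x)
            show _ ∈ Z; convert this using 1; group
          inv_mem' := fun {x} hx => by
            have := nZ.conj_mem' _ (inv_mem hx) x
            show _ ∈ Z; convert this using 1; group }
      have ZF : ∀ {x}, x ∈ Z → x ∈ F := fun hx => mul_mem (nZ.conj_mem _ hx u) (inv_mem hx)
      have zF : ∀ {x}, z * x ∈ F ↔ x ∈ F := mul_mem_cancel_left (show z ∈ F from uz)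
      have aF : ∀ {x}, a * x ∈ F ↔ x ∈ F := mul_mem_cancel_left (show a ∈ F from ua)
      have : r ∈ F ∨ b * r ∈ F := by
        rcases h.eR.cov hz ha hb i hr with e | e | e | e | e | e | e | e <;> replace e := ZF e <;>
          (try simp only [zF, aF] at e) <;> simp [e]
      rcases this with e | e
      · have := mul_mem (mul_mem k1 (inv_mem (h.eR.sq r hr))) (inv_mem (show _ ∈ Z from e))
        exact a0 (by convert this using 1; group)
      · have := mul_mem (nZ.conj_mem _ (mul_mem (mul_mem k1 (inv_mem (h.eR.sq r hr)))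
          (inv_mem (nZ.conj_mem' _ (mul_mem (inv_mem ub) (show _ ∈ Z from e)) b))) z) (h.eR.sq z hz)
        exact za (by convert this using 1; group)
    have s2 : s * s = 1 := h.hC _ (mul_mem uu uu) fun y hy => by
      obtain ⟨r, hr, e⟩ := h.fixpow uu hy
      rw [← conj_mul, e]
      calc _ = r * (s * r * s⁻¹) * (s * s) := by group
        _ = _ := by rw [k r hr]; group
    let H : Subgroup X :=
      { carrier := {x | x ∈ Q ∧ x * x ∈ V}
        one_mem' := by simp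
        mul_mem' := fun {x y} hx hy => ⟨mul_mem hx.1 hy.1, by
          have := mul_mem (mul_mem hx.2 (h.ab _ (inv_mem hx.1) _ hy.1)) hy.2
          convert this using 1; group⟩
        inv_mem' := fun {x} hx => ⟨inv_mem hx.1, by simpa using inv_mem hx.2⟩ }
    have RH : R ≤ H := fun x hx => ⟨h.RQ hx, h.sq x hx⟩
    have VR := h.VZ.trans h.eR.le
    have := h.eV.nA
    have := h.hy.r4 H V (VR.trans RH) (by rw [normalizer_eq_top]; exact le_top) fun x hx => hx.2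
    rw [← relIndex_mul_relIndex V R H VR RH, ← relIndex_mul_relIndex V Z R h.VZ h.eR.le, h.eR.idx] at this
    have k1 : V.relIndex Z ≠ 0 := index_ne_zero_of_finite
    have k2 : R.relIndex H ≠ 0 := index_ne_zero_of_finite
    have k3 : V.relIndex Z ≠ 1 := fun e => cV (relIndex_eq_one.1 e ((h.cZ c).2 (.inr (by simp))))
    have k4 : R.relIndex H ≠ 1 := fun e => z0 (h.q1 hz (by
      have sR : s ∈ R := relIndex_eq_one.1 e ⟨uu, s2 ▸ one_mem _⟩
      have := k z hz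
      rw [(h.comm sR hz).eq, mul_inv_cancel_right] at this
      exact mul_eq_one_iff_eq_inv.2 this))
    have : 2 * 8 * 2 ≤ V.relIndex Z * 8 * R.relIndex H := Nat.mul_le_mul (by omega) (by omega)
    omega
  -- the abelian group `C_Q(R)`
  let M := Q ⊓ centralizer (R : Set X)
  have mM : ∀ {x}, x ∈ M ↔ x ∈ Q ∧ ∀ r ∈ R, Commute r x := Iff.rfl
  have RM : R ≤ M := fun x hx => ⟨h.RQ hx, fun r hr => h.comm hr hx⟩
  have : IsMulCommutative M := ⟨⟨fun s t => Subtype.ext (mul_inv_eq_iff_eq_mul.1 (mul_inv_eq_one.1 (h.hC _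
    (h.RQ (h.eR.le (h.VZ (h.ab _ s.2.1 _ t.2.1)))) fun y hy => by
      obtain ⟨r, hr, e⟩ := h.fixpow s.2.1 hy
      obtain ⟨r', hr', e'⟩ := h.fixpow t.2.1 hy
      have c1 := (mM.1 s.2).2
      have c2 := (mM.1 t.2).2
      rw [coe_mul]
      calc _ = y * s * y⁻¹ * (y * t * y⁻¹) * (y * s * y⁻¹)⁻¹ * (y * t * y⁻¹)⁻¹ := by group
        _ = r * (s * (r' * t) * s.1⁻¹) * r⁻¹ * (r' * t)⁻¹ := by rw [e, e']; group
        _ = _ := by
          rw [((c1 r hr).mul_right ((h.comm hr hr').mul_right (c2 r hr))).mul_right (c1 r hr).inv_right |>.eq,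
            ← mul_assoc s.1, ← (c1 r' hr').eq, mul_inv_cancel_right, mul_assoc r', mul_assoc r', mul_inv_rev,
            ← mul_assoc, mul_assoc r', ((((c1 r' hr').mul_right (c2 r' hr')).mul_right (c1 r' hr').inv_right).mul_right
              (c2 r' hr').inv_right).eq, mul_inv_cancel_right])))⟩⟩
  have nM : ∀ x, x ∈ normalizer (M : Set X) := fun x => by rw [normalizer_eq_top]; trivial
  have uM : u * u ∈ M := ⟨uu, fun r hr => (sR r hr).symm⟩
  obtain ⟨T2, T3, s, hs, md, ng⟩ := h.hy.r4.ex (Q := Q) inf_le_left (nM u) (nM g) g3 uM uQ h3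
  set T1 := cj M (nM u)
  set σ := cj M (nM g)
  let R' : AddSubgroup (Additive M) := (R.subgroupOf M).toAddSubgroup
  have mR : ∀ {x}, x ∈ R' ↔ ι x ∈ R := Iff.rfl
  have hσ : ∀ x ∈ R', σ x ∈ R' := fun x hx => nR.conj_mem _ hx g
  have dbl : ∀ {x y : Additive M}, x ∈ R' → y ∈ R' → ι x * ι y ∈ Z → x + x = y + y := fun {x y} hx hy e => by
    have k1 : x + y + (x + y) = 0 := ι_ext.2 (h.z2 e)
    have k2 : y + y + (y + y) = 0 := ι_ext.2 (r4 _ hy)
    linear_combination (norm := module) k1 - k2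
  have q4 : ∀ x ∈ R', x + x + (x + x) = 0 := fun x hx => ι_ext.2 (r4 _ hx)
  obtain ⟨z, rfl⟩ := ι_surj (RM hz)
  obtain ⟨a, rfl⟩ := ι_surj (RM ha)
  obtain ⟨b, rfl⟩ := ι_surj (RM hb)
  have cZ : c ∈ Z := (h.cZ c).2 (.inr (by simp))
  obtain ⟨c, rfl⟩ := ι_surj (RM (h.eR.le cZ))
  have dbl' : ∀ {x y : Additive M}, ι x * (ι y)⁻¹ ∈ Z → x + x = y + y := fun {x y} e => by
    have k1 : x - y + (x - y) = 0 := ι_ext.2 (by simpa using h.z2 e)
    linear_combination (norm := module) k1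
  have g1 : σ z + σ z = z + z := dbl' gz
  have g2 : σ a + σ a = b + b := dbl' ga
  have g3 : σ b + σ b = a + b + (a + b) := dbl' gb
  have u1 : T1 z + T1 z = z + z := dbl' uz
  have u2 : T1 a + T1 a = a + a := dbl' ua
  have u3 : T1 b + T1 b = b + z + (b + z) := dbl' ub
  have z4 := q4 z hz
  have a4 := q4 a ha
  have b4 := q4 b hb
  have c2 : c + c = 0 := ι_ext.2 (h.z2 cZ)
  have g1' : σ (σ z) + σ (σ z) = z + z := by rw [← map_add, g1, map_add, g1]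
  have g2' : σ (σ a) + σ (σ a) = a + b + (a + b) := by rw [← map_add, g2, map_add, g3]
  obtain ⟨y, hy⟩ : ∃ y, y = z + σ z + σ (σ z) := ⟨_, rfl⟩
  obtain ⟨w, hw⟩ : ∃ w, w = σ a - σ (σ a) := ⟨_, rfl⟩
  have yy : y + y = z + z := by rw [hy]; linear_combination (norm := module) g1 + g1' + z4
  have ww : w + w = a + a := by rw [hw]; linear_combination (norm := module) g2 - g2' - a4
  have ww1 : σ w + σ w = b + b := by rw [← map_add, ww, map_add, g2]
  have ww2 : σ (σ w) + σ (σ w) = a + b + (a + b) := by rw [← map_add, ww1, map_add, g3]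
  have n0 : ∀ {x}, x ∈ R' → ι x ∉ Z → x + x ≠ 0 := fun hx e k => e (h.q1 hx (ι_ext.1 k))
  have cR : c ∈ R' := h.eR.le cZ
  refine ng (md.m2 R' (fun x hx => nR.conj_mem _ hx u) hσ (y := y) (w := w) (c := c + σ c + σ (σ c))
    (hy ▸ add_mem (add_mem hz (hσ _ hz)) (hσ _ (hσ _ hz))) (hw ▸ sub_mem (hσ _ ha) (hσ _ (hσ _ ha)))
    (add_mem (add_mem cR (hσ _ cR)) (hσ _ (hσ _ cR))) (by simp only [hw, map_sub, md.s3]; module)
    (by simp only [hy, map_add, md.s3]; module) (by simp only [map_add, md.s3]; module) ?_ (fun x hx => ?_)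
    (yy ▸ z4) (ww ▸ a4) (fun x hx e => ?_) (yy ▸ n0 hz z0) (ww ▸ n0 ha a0) ?_ (by rw [← map_add, ww, map_add, u2])
    (by rw [← map_add, yy, map_add, u1]) (by rw [← map_add, ww1, map_add, u3, yy]; module) ?_ ?_)
  · have k1 : σ c + σ c = 0 := by rw [← map_add, c2, map_zero]
    have k2 : σ (σ c) + σ (σ c) = 0 := by rw [← map_add, k1, map_zero]
    linear_combination (norm := module) c2 + k1 + k2
  · have x4 := q4 x hx
    have k : ∀ {t : Additive M}, ι t ∈ Z → t + t = 0 := fun e => ι_ext.2 (h.z2 e)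
    rcases h.eR.cov hz ha hb i hx with e | e | e | e | e | e | e | e
    · exact ⟨0, 0, by simp, by simp, by simpa using k e⟩
    · exact ⟨y, 0, by simp, by simp, by linear_combination (norm := module) k (t := z + x) e - yy - z4⟩
    · exact ⟨0, w, by simp, by simp, by linear_combination (norm := module) k (t := a + x) e - ww - a4⟩
    · exact ⟨y, w, by simp, by simp, by linear_combination (norm := module) k (t := z + (a + x)) e - yy - z4 - ww - a4⟩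
    · exact ⟨0, σ w, by simp, by simp, by linear_combination (norm := module) k (t := b + x) e - ww1 - b4⟩
    · exact ⟨y, σ w, by simp, by simp, by linear_combination (norm := module) k (t := z + (b + x)) e - yy - z4 - ww1 - b4⟩
    · exact ⟨0, σ (σ w), by simp, by simp, by
        linear_combination (norm := module) k (t := a + (b + x)) e - ww2 - a4 - b4⟩
    · exact ⟨y, σ (σ w), by simp, by simp, by
        linear_combination (norm := module) k (t := z + (a + (b + x))) e - yy - z4 - ww2 - a4 - b4⟩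
  · have nV := h.eV.nA
    have k : ∀ {t : Additive M}, ι t ∈ V → ∃ r ∈ R', t = r + r := fun e => by
      obtain ⟨r, hr, k⟩ := h.surj e
      obtain ⟨r, rfl⟩ := ι_surj (RM hr)
      exact ⟨r, hr, ι_ext.2 k.symm⟩
    rcases (h.cZ _).1 (h.q1 hx (ι_ext.1 e)) with f | f
    · obtain ⟨r, hr, f⟩ := k f
      exact ⟨r, hr, .inl f⟩
    · obtain ⟨r, hr, f⟩ := k (t := x - c - σ (σ c - c)) (by
        rw [ι_sub, ι_sub, ι_cj, ι_sub, ι_cj]; exact mul_mem f (inv_mem (nV.conj_mem _ (h.trZ g gY _ cZ) g)))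
      have k1 : σ c + σ c = 0 := by rw [← map_add, c2, map_zero]
      have k2 : σ (σ c) + σ (σ c) = 0 := by rw [← map_add, k1, map_zero]
      exact ⟨r, hr, .inr (by rw [map_sub] at f; linear_combination (norm := module) f - k1)⟩
  · rw [ww, yy]
    exact fun e => n0 (add_mem hz ha) za (by linear_combination (norm := module) e + z4)
  · exact mR.2 (by simpa [σ, hs] using h.trQ g gY _ uu)
  · refine ι_ext.2 (h.hC _ (inf_le_left (b := centralizer _) (ι_mem _)) fun y hy => ?_)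
    obtain ⟨r, hr, e⟩ := h.fixpow uu hy
    obtain ⟨r, rfl⟩ := ι_surj (RM hr)
    have : r + s + (r + s) + (r + s + (r + s)) = s + s + (s + s) := by linear_combination (norm := module) q4 r hr
    conv_rhs => rw [← this]
    simp only [ι_add, hs, ← e]; group

end Two

theorem Hy.one (h : Hy Q) : One Q := by
  induction' hn : Nat.card X using Nat.strong_induction_on with n ih generalizing X
  intro K nK KQ
  have nQ := h.nQ
  have quo : ∀ (N : Subgroup X) [N.Normal], N ≠ ⊥ → N ≤ Q → One (Q.map (QuotientGroup.mk' N)) := fun N _ N0 NQ =>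
    ih _ (by
      rw [← hn, card_eq_card_quotient_mul_card_subgroup N]
      exact lt_mul_of_one_lt_right Nat.card_pos ((one_lt_card_iff_ne_bot N).2 N0))
      (h.map _ (QuotientGroup.mk'_surjective N) (by rwa [QuotientGroup.ker_mk'])) rfl
  by_contra! hK
  let C := Q ⊓ centralizer (O2 X : Set X)
  have trC : Tr (O2 X) C ⊥ := fun y hy a ha => by rw [ha.2 y hy]; simp
  by_cases C0 : C = ⊥
  swap
  · rcases quo C C0 inf_le_left _ (nK.map _ (QuotientGroup.mk'_surjective C)) (map_mono KQ) with e | e <;>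
      rw [tr_map _ (QuotientGroup.mk'_surjective C)] at e
    · exact hK.1 (Tr.trans h.pQ inf_le_left (by rwa [MonoidHom.comap_bot, QuotientGroup.ker_mk'] at e) trC)
    rw [comap_map_eq, QuotientGroup.ker_mk'] at e
    refine hK.2 (Tr.trans h.pQ (sup_le KQ inf_le_left) e fun y hy a ha => ?_)
    obtain ⟨k, hk, t, ht, rfl⟩ := mem_sup_of_normal_right.1 ha
    have := mul_mem (nK.conj_mem k hk y) (inv_mem hk)
    rw [← mul_assoc, mul_assoc _ t, ← (show Commute y t from ht.2 y hy).inv_left.eq]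
    convert this using 1; group
  have hC : ∀ x ∈ Q, (∀ y ∈ O2 X, y * x * y⁻¹ = x) → x = 1 := fun x hx e =>
    mem_bot.1 (C0 ▸ (⟨hx, fun y hy => mul_inv_eq_iff_eq_mul.1 (e y hy)⟩ : x ∈ C))
  obtain ⟨V, ⟨nV, VK, V0⟩, hm⟩ := exists_minimal_of_wellFoundedLT (fun V : Subgroup X => V.Normal ∧ V ≤ K ∧ V ≠ ⊥)
    ⟨K, nK, le_rfl, fun e => hK.1 (by rw [e]; intro y _ a ha; simp [mem_bot.1 ha])⟩
  have VQ := VK.trans KQ
  have eV := h.e8_bot VQ (fun L nL LV => (eq_or_ne L ⊥).imp_right fun e => LV.antisymm (hm ⟨nL, LV.trans VK, e⟩ LV))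
    fun e => V0 (eq_bot_iff.2 fun v hv => hC v (VQ hv) fun y hy => mul_inv_eq_one.1 (e y hy v hv))
  let π := QuotientGroup.mk' V
  have hπ : Function.Surjective π := QuotientGroup.mk'_surjective V
  have k1 : ∀ {x}, π x = 1 ↔ x ∈ V := QuotientGroup.eq_one_iff _
  have kQ : (Q.map π).comap π = Q := comap_map_eq_self (by rwa [QuotientGroup.ker_mk'])
  obtain ⟨R, Z, c, d, s⟩ := (h.map π hπ (by rwa [QuotientGroup.ker_mk'])).str (quo V V0 VQ) fun e => hK.2 (by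
    rw [tr_map _ hπ, MonoidHom.comap_bot, QuotientGroup.ker_mk'] at e
    exact e.mono le_rfl VK)
  obtain ⟨c, rfl⟩ := hπ c
  refine Two.false (V := V) (R := R.comap π) (Z := Z.comap π) (c := c) ⟨h, hC, eV, kQ ▸ s.e8.comap π hπ,
    fun x hx => by rw [mem_comap, k1.2 hx]; exact one_mem _, kQ ▸ comap_mono s.le, fun r hr => k1.1 (s.sq _ hr),
    (tr_map π hπ).1 s.trQ, fun y hy z hz => k1.1 ?_, fun z => ?_, fun x hx y hy => k1.1 ?_, fun c0 x hx x0 => ?_⟩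
  · simp only [map_mul, map_inv, ((s.memZ _).1 hz).2 _ (map_O2 π hπ ▸ mem_map_of_mem π hy), mul_inv_cancel]
  · rw [mem_comap, s.cZ, ← k1, ← k1, map_mul, map_inv, mul_inv_eq_one]
  · simp [s.ab _ (mem_map_of_mem π hx) _ (mem_map_of_mem π hy)]
  · obtain ⟨g, hg, e⟩ := s.uni (mt k1.1 c0) _ hx x0
    rw [← map_O2 π hπ] at hg
    obtain ⟨g, hg, rfl⟩ := hg
    exact ⟨g, hg, k1.1 (by simp only [map_mul, map_inv, e, mul_inv_cancel])⟩

end Cfsg.Lib.L32
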